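import Cfsg.Agent.SpExt.Embed
import Cfsg.Agent.SpSkew.Main
import Cfsg.Agent.SubElusive.Singer
import Mathlib

/-!
Elements of prime order and the field extension subgroups of the symplectic group.
-/

set_option autoImplicit false

namespace CfsgLib.SpExt

open Matrix CfsgLib.SpSkew

universe u

variable {F : Type u} [Field F] {d : ℕ}

local notation "𝕍" => (Fin d ⊕ Fin d → F)
local notation "𝕄" => Matrix (Fin d ⊕ Fin d) (Fin d ⊕ Fin d) F
local notation "𝔾" => GL (Fin d ⊕ Fin d) F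
local notation "𝕗" => Cfsg.sympForm d F

theorem isField (hd : 1 ≤ d) {k : ℕ} {K : Subalgebra F 𝕄} (hK : Cfsg.Geo.IsFieldSubalgebra k K) : IsField K := by
  haveI : Nonempty (Fin d) := ⟨⟨0, hd⟩⟩
  refine ⟨⟨0, 1, fun h => ?_⟩, fun a b => Subtype.ext (hK.comm _ a.2 _ b.2), fun {a} ha => ?_⟩
  · have := congrArg Subtype.val h
    simp at this
  · obtain ⟨y, hy, hy'⟩ := hK.inv a.1 a.2 fun h => ha (Subtype.ext h)
    exact ⟨⟨y, hy⟩, Subtype.ext hy'⟩

variable [Fintype F]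

/-- An element that fixes a point is not of the avoiding kind. -/
theorem not_elem (hd : 1 ≤ d) {k : ℕ} (hk : k.Prime) {K : Subalgebra F 𝕄} (hK : Cfsg.Geo.IsFieldSubalgebra k K)
    (hKf : Cfsg.Geo.IsSelfAdjointFor 𝕗 K) (hKalt : ∀ a ∈ K, ∀ v : 𝕍, 𝕗 (a *ᵥ v) v = 0) {r m : ℕ} (hr : r.Prime)
    (hall : ∀ x ∈ Cfsg.spGL d F, (∃ z : F, ((x ^ r : 𝔾) : 𝕄) = z • (1 : 𝕄)) → (∀ z : F, (x : 𝕄) ≠ z • (1 : 𝕄)) →
      ∃ g ∈ Cfsg.spGL d F, g⁻¹ * x * g ∈ Cfsg.Geo.subalgebraNormalizer K)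
    {x : 𝔾} (hx : Elem k r m x) (hm : r ≠ k ∨ d < m) : False := by
  classical
  obtain ⟨hxsp, hxr, hxns, hxnf, W, hWm, hWx⟩ := hx
  obtain ⟨g, hg, hy⟩ := hall x hxsp ⟨1, by rw [Units.val_pow_eq_pow_val, hxr, one_smul]⟩ hxns
  have hx1 : x ^ r = 1 := Units.ext (by rw [Units.val_pow_eq_pow_val, hxr, Units.val_one])
  have hyr : (g⁻¹ * x * g) ^ r = 1 := by
    have := map_pow (MulAut.conj g⁻¹) x r
    simp only [MulAut.conj_apply, inv_inv] at this
    rw [← this, hx1, mul_one, inv_mul_cancel]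
  generalize hyd : g⁻¹ * x * g = y at hy hyr
  letI : Field K := (isField hd hK).toField
  haveI : FiniteDimensional F K := FiniteDimensional.finiteDimensional_subalgebra K
  haveI : Finite K := Module.finite_of_finite F
  have hyy : (y : 𝕄) * ((y⁻¹ : 𝔾) : 𝕄) = 1 := by rw [← Units.val_mul, mul_inv_cancel, Units.val_one]
  have hyy' : ((y⁻¹ : 𝔾) : 𝕄) * (y : 𝕄) = 1 := by rw [← Units.val_mul, inv_mul_cancel, Units.val_one]
  let f₀ : K →ₐ[F] K := AlgHom.ofLinearMap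
    { toFun := fun a => ⟨(y : 𝕄) * (a : 𝕄) * ((y⁻¹ : 𝔾) : 𝕄), (hy a).1 a.2⟩
      map_add' := fun a b => Subtype.ext (by simp [mul_add, add_mul])
      map_smul' := fun c a => Subtype.ext (by simp [mul_smul_comm, smul_mul_assoc]) }
    (Subtype.ext (by simp [hyy]))
    (fun a b => Subtype.ext (by
      show (y : 𝕄) * ((a : 𝕄) * (b : 𝕄)) * _ = _ * _
      calc _ = (y : 𝕄) * (a : 𝕄) * (((y⁻¹ : 𝔾) : 𝕄) * (y : 𝕄)) * (b : 𝕄) * ((y⁻¹ : 𝔾) : 𝕄) := by
            rw [hyy', mul_one]; simp only [mul_assoc]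
        _ = _ := by simp only [LinearMap.coe_mk, AddHom.coe_mk, mul_assoc]))
  have hbij : Function.Bijective f₀ := Finite.injective_iff_bijective.1 f₀.toRingHom.injective
  let σ : K ≃ₐ[F] K := AlgEquiv.ofBijective f₀ hbij
  have hσ : ∀ a : K, ((σ a : K) : 𝕄) = (y : 𝕄) * (a : 𝕄) * ((y⁻¹ : 𝔾) : 𝕄) := fun a => rfl
  have hσn : ∀ (n : ℕ) (a : K), (((σ ^ n) a : K) : 𝕄) = ((y ^ n : 𝔾) : 𝕄) * (a : 𝕄) * (((y ^ n)⁻¹ : 𝔾) : 𝕄) := by
    intro n
    induction n with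
    | zero => intro a; simp
    | succ n ih =>
      intro a
      rw [pow_succ', AlgEquiv.mul_apply, hσ, ih, pow_succ' y, _root_.mul_inv_rev]
      simp only [Units.val_mul, mul_assoc]
  have hσr : σ ^ r = 1 := AlgEquiv.ext fun a => Subtype.ext (by rw [hσn, hyr]; simp)
  have hgg : (g : 𝕄) * ((g⁻¹ : 𝔾) : 𝕄) = 1 := by rw [← Units.val_mul, mul_inv_cancel, Units.val_one]
  have hgg' : ((g⁻¹ : 𝔾) : 𝕄) * (g : 𝕄) = 1 := by rw [← Units.val_mul, inv_mul_cancel, Units.val_one]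
  let ρ : K →ₐ[F] 𝕄 := AlgHom.ofLinearMap
    { toFun := fun a => (g : 𝕄) * (a : 𝕄) * ((g⁻¹ : 𝔾) : 𝕄)
      map_add' := fun a b => by simp [mul_add, add_mul]
      map_smul' := fun c a => by simp [mul_smul_comm, smul_mul_assoc] }
    (by simp [hgg])
    (fun a b => by
      show (g : 𝕄) * ((a : 𝕄) * (b : 𝕄)) * _ = _
      calc _ = (g : 𝕄) * (a : 𝕄) * (((g⁻¹ : 𝔾) : 𝕄) * (g : 𝕄)) * (b : 𝕄) * ((g⁻¹ : 𝔾) : 𝕄) := by
            rw [hgg', mul_one]; simp only [mul_assoc]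
        _ = _ := by simp only [LinearMap.coe_mk, AddHom.coe_mk, mul_assoc])
  have hρ : ∀ a : K, ρ a = (g : 𝕄) * (a : 𝕄) * ((g⁻¹ : 𝔾) : 𝕄) := fun a => rfl
  have hgf := GeoSp.mem_spGL.1 hg
  have hgi := GeoSp.mem_spGL.1 (Subgroup.inv_mem _ hg)
  have hsa : ∀ a u v, 𝕗 (ρ a *ᵥ u) v = 𝕗 u (ρ a *ᵥ v) := by
    intro a u v
    rw [hρ, ← Matrix.mulVec_mulVec, ← Matrix.mulVec_mulVec, ← Matrix.mulVec_mulVec, ← Matrix.mulVec_mulVec]
    conv_lhs => rw [← Matrix.one_mulVec v, ← hgg, ← Matrix.mulVec_mulVec, hgf, hKf _ a.2]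
    conv_rhs => rw [← Matrix.one_mulVec u, ← hgg, ← Matrix.mulVec_mulVec, hgf]
  have halt : ∀ a v, 𝕗 (ρ a *ᵥ v) v = 0 := by
    intro a v
    rw [hρ, ← Matrix.mulVec_mulVec, ← Matrix.mulVec_mulVec]
    have h1 := hKalt _ a.2 (((g⁻¹ : 𝔾) : 𝕄) *ᵥ v)
    rw [← hgf, Matrix.mulVec_mulVec v (g : 𝕄), hgg, Matrix.one_mulVec] at h1
    exact h1
  have hxρ : ∀ a, (x : 𝕄) * ρ a = ρ (σ a) * (x : 𝕄) := by
    intro a
    have hxe : (x : 𝕄) = (g : 𝕄) * (y : 𝕄) * ((g⁻¹ : 𝔾) : 𝕄) := by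
      rw [← hyd, ← Units.val_mul, ← Units.val_mul]
      congr 1
      group
    rw [hρ, hρ, hσ, hxe]
    calc _ = (g : 𝕄) * (y : 𝕄) * (((g⁻¹ : 𝔾) : 𝕄) * (g : 𝕄)) * (a : 𝕄) * ((g⁻¹ : 𝔾) : 𝕄) := by simp only [mul_assoc]
      _ = (g : 𝕄) * (y : 𝕄) * (a : 𝕄) * (((y⁻¹ : 𝔾) : 𝕄) * (y : 𝕄)) * ((g⁻¹ : 𝔾) : 𝕄) := by
          rw [hgg', hyy', mul_one, mul_one]
      _ = (g : 𝕄) * (y : 𝕄) * (a : 𝕄) * ((y⁻¹ : 𝔾) : 𝕄) * (((g⁻¹ : 𝔾) : 𝕄) * (g : 𝕄)) * (y : 𝕄) *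
          ((g⁻¹ : 𝔾) : 𝕄) := by rw [hgg', mul_one]; simp only [mul_assoc]
      _ = _ := by simp only [mul_assoc]
  by_cases hσ1 : σ = 1
  · obtain ⟨a, ha⟩ := hxnf K ρ hK.finrank_eq hsa halt
    exact ha (by rw [hxρ, hσ1, AlgEquiv.one_apply])
  · have hord : orderOf σ = r := (Nat.dvd_prime hr).1 (orderOf_dvd_of_pow_eq_one hσr) |>.resolve_left
      fun h => hσ1 (orderOf_eq_one_iff.1 h)
    have hrk : r = k := by
      have h1 : r ∣ Nat.card (K ≃ₐ[F] K) := hord ▸ orderOf_dvd_natCard σ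
      rw [IsGalois.card_aut_eq_finrank, hK.finrank_eq] at h1
      exact (Nat.prime_dvd_prime_iff_eq hr hk).1 h1
    obtain ⟨a, ha⟩ : ∃ a, σ a ≠ a := by
      by_contra hcon
      push Not at hcon
      exact hσ1 (AlgEquiv.ext hcon)
    have hne : a ≠ 0 := fun h => ha (by rw [h, map_zero])
    let L : 𝕍 →ₗ[F] 𝕍 := Matrix.mulVecLin (ρ a)
    have hinjL : Function.Injective L := fun u v h => by
      have := congrArg (fun w => ρ a⁻¹ *ᵥ w) h
      simp only [L, Matrix.mulVecLin_apply, Matrix.mulVec_mulVec] at this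
      rwa [← map_mul ρ, inv_mul_cancel₀ hne, map_one, Matrix.one_mulVec, Matrix.one_mulVec] at this
    have hdisj : W ⊓ W.map L = ⊥ := by
      refine (Submodule.eq_bot_iff _).2 ?_
      rintro _ ⟨h1, w, hw, rfl⟩
      have h3 := congrArg (fun A : 𝕄 => A *ᵥ w) (hxρ a)
      simp only [← Matrix.mulVec_mulVec] at h3
      rw [hWx w hw, hWx _ (by simpa [L] using h1)] at h3
      have h4 : ρ (σ a - a) *ᵥ w = 0 := by rw [map_sub, Matrix.sub_mulVec, ← h3, sub_self]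
      have h5 := congrArg (fun v => ρ (σ a - a)⁻¹ *ᵥ v) h4
      simp only [Matrix.mulVec_mulVec, Matrix.mulVec_zero] at h5
      rw [← map_mul ρ, inv_mul_cancel₀ (sub_ne_zero.2 ha), map_one, Matrix.one_mulVec] at h5
      rw [h5, map_zero]
    have h1 := Submodule.finrank_sup_add_finrank_inf_eq W (W.map L)
    rw [hdisj, finrank_bot, add_zero, ← (Submodule.equivMapOfInjective L hinjL W).finrank_eq] at h1
    have h3 := Submodule.finrank_le (W ⊔ W.map L)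
    rw [Module.finrank_fintype_fun_eq_card, Fintype.card_sum, Fintype.card_fin] at h3
    rcases hm with hm | hm
    · exact hm hrk
    · omega

/-- The index only involves the exponents prime to `k`. -/
theorem index_primes (hd : 1 ≤ d) {k : ℕ} (hk : k.Prime) {K : Subalgebra F 𝕄} (hK : Cfsg.Geo.IsFieldSubalgebra k K)
    (hKf : Cfsg.Geo.IsSelfAdjointFor 𝕗 K) (hKalt : ∀ a ∈ K, ∀ v : 𝕍, 𝕗 (a *ᵥ v) v = 0) :
    (∃ m, d = k * m) ∧ ∀ r : ℕ, r.Prime → r ∣ (Cfsg.Geo.subalgebraNormalizer K).relIndex (Cfsg.spGL d F) →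
      r ∣ Fintype.card F ∨ ∃ i, 1 ≤ i ∧ i ≤ d ∧ ¬ k ∣ i ∧ r ∣ Fintype.card F ^ (2 * i) - 1 := by
  classical
  letI : Field K := (isField hd hK).toField
  haveI : FiniteDimensional F K := FiniteDimensional.finiteDimensional_subalgebra K
  haveI : Finite K := Module.finite_of_finite F
  letI : Fintype K := Fintype.ofFinite K
  obtain ⟨m, hdm, H, hH, hHsp, hHc⟩ := exists_embed (K.val : K →ₐ[F] 𝕄) (fun a u v => hKf _ a.2 u v)
    (fun a v => hKalt _ a.2 v)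
  rw [hK.finrank_eq] at hdm
  refine ⟨⟨m, hdm⟩, fun r hr hrdvd => ?_⟩
  have hcardK : Fintype.card K = Fintype.card F ^ k := by
    rw [Module.card_eq_pow_finrank (K := F), hK.finrank_eq]
  have hHN : H ≤ Cfsg.Geo.subalgebraNormalizer K ⊓ Cfsg.spGL d F := by
    intro h hh
    refine ⟨?_, hHsp hh⟩
    have hmem : ∀ g ∈ H, ∀ a : 𝕄, a ∈ K → (g : 𝕄) * a * ((g⁻¹ : 𝔾) : 𝕄) = a := fun g hg a ha => by
      have := hHc g hg ⟨a, ha⟩
      simp only [Subalgebra.coe_val] at this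
      rw [this, mul_assoc, ← Units.val_mul, mul_inv_cancel, Units.val_one, mul_one]
    intro a
    refine ⟨fun ha => by rw [hmem h hh a ha]; exact ha, fun ha => ?_⟩
    have h1 := hmem h⁻¹ (inv_mem hh) _ ha
    rw [inv_inv] at h1
    have : a = (h : 𝕄) * a * ((h⁻¹ : 𝔾) : 𝕄) := by
      conv_rhs => rw [← h1]
      simp only [← mul_assoc, ← Units.val_mul, inv_mul_cancel, Units.val_one, one_mul]
      simp only [mul_assoc, ← Units.val_mul, inv_mul_cancel, Units.val_one, mul_one]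
    rw [this]; exact ha
  obtain ⟨t, ht⟩ := Subgroup.card_dvd_of_le hHN
  have hmul : Nat.card ↥(Cfsg.Geo.subalgebraNormalizer K ⊓ Cfsg.spGL d F) *
      (Cfsg.Geo.subalgebraNormalizer K).relIndex (Cfsg.spGL d F) = Nat.card (Cfsg.spGL d F) := by
    rw [← Subgroup.inf_relIndex_right, Subgroup.relIndex,
      ← Nat.card_congr (Subgroup.subgroupOfEquivOfLe (inf_le_right :
        Cfsg.Geo.subalgebraNormalizer K ⊓ Cfsg.spGL d F ≤ Cfsg.spGL d F)).toEquiv]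
    exact Subgroup.card_mul_index _
  have eSp : Cfsg.spGL d F ≃ Matrix.symplecticGroup (Fin d) F :=
    Equiv.ofBijective (fun g => ⟨_, SpGeom.mem_of_form (GeoSp.mem_spGL.1 g.2)⟩)
      ⟨fun a b h => Subtype.ext (Units.ext (congrArg Subtype.val h)),
        fun A => ⟨⟨GeoSp.toG A, GeoSp.toG_mem A⟩, rfl⟩⟩
  rw [Nat.card_congr eSp, SpGeom.card_Sp, ht, hH, hcardK] at hmul
  generalize hX : (Cfsg.Geo.subalgebraNormalizer K).relIndex (Cfsg.spGL d F) = X at hmul hrdvd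
  set q := Fintype.card F with hq
  have hq1 : 1 < q := Fintype.one_lt_card
  have hsplit : ∏ i ∈ Finset.range d, (q ^ (2 * (i + 1)) - 1) =
      (∏ i ∈ Finset.range m, ((q ^ k) ^ (2 * (i + 1)) - 1)) *
        ∏ i ∈ (Finset.range d).filter (fun i => ¬ k ∣ i + 1), (q ^ (2 * (i + 1)) - 1) := by
    rw [← Finset.prod_filter_mul_prod_filter_not (Finset.range d) (fun i => k ∣ i + 1)]
    congr 1
    refine (Finset.prod_nbij' (fun j => k * (j + 1) - 1) (fun i => (i + 1) / k - 1) ?_ ?_ ?_ ?_ ?_).symm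
    · intro j hj
      rw [Finset.mem_range] at hj
      have h1 : 1 ≤ k * (j + 1) := Nat.mul_pos hk.pos (by omega)
      have h3 : k * (j + 1) ≤ k * m := Nat.mul_le_mul_left k hj
      refine Finset.mem_filter.2 ⟨Finset.mem_range.2 (by omega), ?_⟩
      rw [Nat.sub_add_cancel h1]
      exact dvd_mul_right _ _
    · intro i hi
      obtain ⟨hi1, c, hc⟩ := Finset.mem_filter.1 hi
      rw [Finset.mem_range] at hi1 ⊢
      rw [hc, Nat.mul_div_cancel_left _ hk.pos]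
      have : c ≤ m := Nat.le_of_mul_le_mul_left (by omega) hk.pos
      have : c ≠ 0 := fun h0 => by rw [h0, mul_zero] at hc; omega
      omega
    · intro j _
      rw [Nat.sub_add_cancel (Nat.mul_pos hk.pos (by omega)), Nat.mul_div_cancel_left _ hk.pos, Nat.add_sub_cancel]
    · intro i hi
      obtain ⟨-, c, hc⟩ := Finset.mem_filter.1 hi
      rw [hc, Nat.mul_div_cancel_left _ hk.pos]
      have : c ≠ 0 := fun h0 => by rw [h0, mul_zero] at hc; omega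
      rw [Nat.sub_add_cancel (by omega), ← hc, Nat.add_sub_cancel]
    · intro j _
      rw [Nat.sub_add_cancel (Nat.mul_pos hk.pos (by omega)), ← pow_mul, mul_left_comm]
  have hpow : q ^ (d ^ 2) = (q ^ k) ^ (m ^ 2) * q ^ (d ^ 2 - k * m ^ 2) := by
    rw [← pow_mul, ← pow_add, Nat.add_sub_cancel']
    rw [hdm, mul_pow, sq k, mul_assoc]
    exact Nat.le_mul_of_pos_left _ hk.pos
  rw [hsplit, hpow, mul_mul_mul_comm ((q ^ k) ^ m ^ 2), mul_assoc] at hmul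
  have hpos : 0 < (q ^ k) ^ (m ^ 2) * ∏ i ∈ Finset.range m, ((q ^ k) ^ (2 * (i + 1)) - 1) :=
    Nat.mul_pos (by positivity) (Finset.prod_pos fun i _ => Nat.sub_pos_of_lt
      (Nat.one_lt_pow (by omega) (Nat.one_lt_pow hk.ne_zero hq1)))
  have hX' := Nat.eq_of_mul_eq_mul_left hpos hmul
  have h1 : r ∣ q ^ (d ^ 2 - k * m ^ 2) *
      ∏ i ∈ (Finset.range d).filter (fun i => ¬ k ∣ i + 1), (q ^ (2 * (i + 1)) - 1) := hX' ▸ Dvd.dvd.mul_left hrdvd t
  rcases hr.dvd_mul.1 h1 with h1 | h1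
  · exact Or.inl (hr.dvd_of_dvd_pow h1)
  · obtain ⟨i, hi, hdvd⟩ := (Prime.dvd_finset_prod_iff hr.prime _).1 h1
    obtain ⟨hi1, hi2⟩ := Finset.mem_filter.1 hi
    rw [Finset.mem_range] at hi1
    exact Or.inr ⟨i + 1, by omega, by omega, hi2, hdvd⟩

/-- The element for the failing primes. -/
theorem exists_elem {p : ℕ} [Fact p.Prime] [CharP F p] (hd : 2 ≤ d) {k : ℕ} (hk : k.Prime) {r : ℕ} [Fact r.Prime]
    (hdiv : ∃ m, d = k * m)
    (hidx : r ∣ Fintype.card F ∨ ∃ i, 1 ≤ i ∧ i ≤ d ∧ ¬ k ∣ i ∧ r ∣ Fintype.card F ^ (2 * i) - 1)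
    (hexc : ¬ (r = 2 ∧ d = 2 ∧ k = 2 ∧ Odd (Fintype.card F))) :
    ∃ (m : ℕ) (x : GL (Fin d ⊕ Fin d) F), Elem k r m x ∧ (r ≠ k ∨ d < m) := by
  classical
  have hr : r.Prime := Fact.out
  obtain ⟨n, hp, hn⟩ := FiniteField.card F p
  rcases eq_or_ne r p with rfl | hrp
  · obtain ⟨x, hx⟩ := transvection_elem (p := r) (F := F) (d := d) (by omega) hk.one_lt
    exact ⟨_, x, hx, Or.inr (by omega)⟩
  have hrq : ¬ r ∣ Fintype.card F := fun hdvd => hrp ((Nat.prime_dvd_prime_iff_eq hr hp).1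
    (hr.dvd_of_dvd_pow (hn ▸ hdvd)))
  rcases eq_or_ne r 2 with rfl | hr2
  · have hodd : Odd (Fintype.card F) := Nat.odd_iff.2 (by omega)
    have h2 : (2 : F) ≠ 0 := fun h0 => by
      have := (CharP.cast_eq_zero_iff F p 2).1 (by exact_mod_cast h0)
      exact hrp ((Nat.prime_dvd_prime_iff_eq hp Nat.prime_two).1 this).symm
    obtain ⟨x, hx⟩ := plane_elem (F := F) h2 hd hk.one_lt
    refine ⟨_, x, hx, ?_⟩
    by_cases hk2 : k = 2
    · refine Or.inr ?_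
      have : d ≠ 2 := fun h => hexc ⟨rfl, h, hk2, hodd⟩
      omega
    · exact Or.inl (Ne.symm hk2)
  rcases hidx with hidx | ⟨i, hi1, hid, hki, hri⟩
  · exact absurd hidx hrq
  have hne : (Fintype.card F : ZMod r) ≠ 0 := fun h0 => hrq ((ZMod.natCast_eq_zero_iff _ _).1 h0)
  have hpos : 1 ≤ orderOf (Fintype.card F : ZMod r) :=
    orderOf_pos_iff.2 (isOfFinOrder_iff_pow_eq_one.2 ⟨r - 1, by have := hr.two_le; omega, ZMod.pow_card_sub_one_eq_one hne⟩)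
  have he2i : orderOf (Fintype.card F : ZMod r) ∣ 2 * i := by
    refine orderOf_dvd_of_pow_eq_one ?_
    have h0 := (ZMod.natCast_eq_zero_iff _ r).2 hri
    rw [Nat.cast_sub (Nat.one_le_pow _ _ Fintype.card_pos)] at h0
    push_cast at h0
    linear_combination h0
  have her : orderOf (Fintype.card F : ZMod r) ∣ r - 1 :=
    orderOf_dvd_of_pow_eq_one (ZMod.pow_card_sub_one_eq_one hne)
  have hroot : ∃ (L : Type u) (_ : Field L) (_ : Algebra F L),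
      Module.finrank F L = orderOf (Fintype.card F : ZMod r) ∧ ∃ ζ : L, orderOf ζ = r := by
    obtain ⟨L₀, _, _, hfe₀, ζ₀, hζ₀⟩ := exists_root (F := F) (p := p) (r := r) hpos (pow_orderOf_eq_one _)
    refine ⟨ULift.{u} L₀, inferInstance, inferInstance, ?_, ULift.up ζ₀, ?_⟩
    · rw [LinearEquiv.finrank_eq (ULift.moduleEquiv : ULift.{u} L₀ ≃ₗ[F] L₀), hfe₀]
    · rw [← hζ₀]
      exact ((ULift.ringEquiv : ULift.{u} L₀ ≃+* L₀).toMulEquiv.orderOf_eq (ULift.up ζ₀)).symm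
  obtain ⟨L, _, _, hfe, ζ, hζ⟩ := hroot
  haveI : FiniteDimensional F L := FiniteDimensional.of_finrank_pos (by rw [hfe]; exact hpos)
  haveI : Finite L := Module.finite_of_finite F
  letI : Fintype L := Fintype.ofFinite L
  have hζr : ζ ^ r = 1 := hζ ▸ pow_orderOf_eq_one ζ
  have hζ1 : ζ ≠ 1 := fun h1 => hr.one_lt.ne' (by rw [← hζ, h1, orderOf_one])
  have hζ0 : ζ ≠ 0 := fun h0 => by rw [h0, zero_pow hr.ne_zero] at hζr; exact zero_ne_one hζr
  obtain ⟨t, ht⟩ := hr.odd_of_ne_two hr2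
  have hζ2 : ζ * ζ ≠ 1 := fun h2 => hζ1 (by rwa [ht, pow_succ, pow_mul, sq, h2, one_pow, one_mul] at hζr)
  rcases Nat.even_or_odd (orderOf (Fintype.card F : ZMod r)) with ⟨h, hh⟩ | hodd
  · have hh2 : orderOf (Fintype.card F : ZMod r) = 2 * h := by omega
    have hhi : h ∣ i := by rw [hh2] at he2i; exact Nat.dvd_of_mul_dvd_mul_left two_pos he2i
    have hhd : h ≤ d := (Nat.le_of_dvd (by omega) hhi).trans hid
    have hkh : ¬ k ∣ h := fun hd' => hki (hd'.trans hhi)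
    let τ : L ≃ₐ[F] L := FiniteField.frobeniusAlgEquivOfAlgebraic F L ^ h
    have hτ : ∀ z, τ z = z ^ (Fintype.card F ^ h) := fun z => by
      show (FiniteField.frobeniusAlgEquivOfAlgebraic F L ^ h) z = _
      rw [AlgEquiv.coe_pow, FiniteField.coe_frobeniusAlgEquivOfAlgebraic_iterate]
    have hqm : (Fintype.card F : ZMod r) ^ h = -1 := by
      have h1 : (Fintype.card F : ZMod r) ^ h * (Fintype.card F : ZMod r) ^ h = 1 := by
        rw [← pow_add, ← hh, pow_orderOf_eq_one]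
      rcases mul_self_eq_one_iff.1 h1 with h3 | h3
      · have h4 := Nat.le_of_dvd (Nat.pos_of_ne_zero fun h0 => by omega) (orderOf_dvd_of_pow_eq_one h3)
        omega
      · exact h3
    have hτζ : τ ζ = ζ⁻¹ := by
      rw [hτ]
      refine eq_inv_of_mul_eq_one_left ?_
      rw [← pow_succ, ← orderOf_dvd_iff_pow_eq_one, hζ, ← ZMod.natCast_eq_zero_iff, Nat.cast_add, Nat.cast_pow, hqm,
        Nat.cast_one, neg_add_cancel]
    have hdeg : ∀ j : ℕ, ζ ^ (Fintype.card F ^ j) = ζ → orderOf (Fintype.card F : ZMod r) ∣ j := fun j hj => by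
      refine orderOf_dvd_of_pow_eq_one ?_
      have h1 : ζ ^ (Fintype.card F ^ j - 1) = 1 := by
        refine mul_right_cancel₀ hζ0 ?_
        rw [← pow_succ, Nat.sub_add_cancel (Nat.one_le_pow _ _ Fintype.card_pos), hj, one_mul]
      have h3 := orderOf_dvd_of_pow_eq_one h1
      rw [hζ, ← ZMod.natCast_eq_zero_iff, Nat.cast_sub (Nat.one_le_pow _ _ Fintype.card_pos), Nat.cast_pow,
        Nat.cast_one, sub_eq_zero] at h3
      exact h3
    have hgen : ∀ z : L, ∃ P : Polynomial F, Polynomial.aeval ζ P = z := by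
      intro z
      have htop : IntermediateField.adjoin F {ζ} = (⊤ : IntermediateField F L) := by
        refine IntermediateField.eq_of_le_of_finrank_le le_top ?_
        rw [IntermediateField.finrank_top', hfe]
        refine Nat.le_of_dvd Module.finrank_pos (hdeg _ ?_)
        haveI : Finite ↥(IntermediateField.adjoin F {ζ}) := Module.finite_of_finite F
        letI : Fintype ↥(IntermediateField.adjoin F {ζ}) := Fintype.ofFinite _
        have h1 := FiniteField.pow_card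
          (⟨ζ, IntermediateField.mem_adjoin_simple_self F ζ⟩ : IntermediateField.adjoin F {ζ})
        rw [Module.card_eq_pow_finrank (K := F)] at h1
        exact congrArg Subtype.val h1
      have hz : z ∈ (IntermediateField.adjoin F {ζ}).toSubalgebra := by rw [htop]; trivial
      rw [IntermediateField.adjoin_simple_toSubalgebra_of_isAlgebraic (Algebra.IsAlgebraic.isAlgebraic ζ),
        Algebra.adjoin_singleton_eq_range_aeval] at hz
      exact hz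
    have hnz : ∀ c : F, algebraMap F L c ≠ ζ := fun c hc => by
      have h1 := hdeg 1 (by rw [pow_one, ← hc, ← map_pow, FiniteField.pow_card])
      have := Nat.le_of_dvd one_pos h1
      omega
    obtain ⟨x, hx⟩ := half_elem (k := k) (r := r) (d := d) (hfe.trans hh2) hhd hkh τ hτ hζr hζ1 hζ2 hτζ hgen hnz
    refine ⟨_, x, hx, ?_⟩
    by_cases hrk : r = k
    · refine Or.inr ?_
      obtain ⟨m, hm⟩ := hdiv
      have := hr.two_le
      have h1 := Nat.le_of_dvd (by omega) her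
      have h3 : k ≤ d := by
        rcases Nat.eq_zero_or_pos m with h0 | h0
        · rw [h0] at hm; omega
        · rw [hm]; exact Nat.le_mul_of_pos_right k h0
      omega
    · exact Or.inl hrk
  · have hei : orderOf (Fintype.card F : ZMod r) ∣ i :=
      (Nat.Coprime.dvd_mul_left (Nat.coprime_two_right.2 hodd)).1 he2i
    obtain ⟨x, hx⟩ := odd_elem (k := k) (d := d) hr hr2 hfe hodd ((Nat.le_of_dvd (by omega) hei).trans hid)
      (fun hd' => hki (hd'.trans hei)) hζr hζ1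
    refine ⟨_, x, hx, ?_⟩
    by_cases hrk : r = k
    · refine Or.inr ?_
      obtain ⟨m, hm⟩ := hdiv
      have := hr.two_le
      obtain ⟨c, hc⟩ := her
      have h3 : k ≤ d := by
        rcases Nat.eq_zero_or_pos m with h0 | h0
        · rw [h0] at hm; omega
        · rw [hm]; exact Nat.le_mul_of_pos_right k h0
      have hc2 : 2 ∣ c := by
        have : 2 ∣ orderOf (Fintype.card F : ZMod r) * c := ⟨t, by omega⟩
        exact (Nat.Coprime.dvd_mul_left (Nat.coprime_two_left.2 hodd)).1 this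
      have : orderOf (Fintype.card F : ZMod r) * 2 ≤ r - 1 := by
        rw [hc]
        refine Nat.mul_le_mul_left _ (Nat.le_of_dvd ?_ hc2)
        rcases Nat.eq_zero_or_pos c with h0 | h0
        · rw [h0] at hc; omega
        · exact h0
      omega
    · exact Or.inl hrk

theorem two_fixes (h2 : (2 : F) ≠ 0) {K : Subalgebra F (Matrix (Fin 2 ⊕ Fin 2) (Fin 2 ⊕ Fin 2) F)}
    (hK : Cfsg.Geo.IsFieldSubalgebra 2 K) (hKf : Cfsg.Geo.IsSelfAdjointFor (Cfsg.sympForm 2 F) K)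
    {x : GL (Fin 2 ⊕ Fin 2) F} (hx : x ∈ Cfsg.spGL 2 F)
    {z : F} (hz : (x : Matrix (Fin 2 ⊕ Fin 2) (Fin 2 ⊕ Fin 2) F) * x = z • 1)
    (hns : ∀ z : F, (x : Matrix (Fin 2 ⊕ Fin 2) (Fin 2 ⊕ Fin 2) F) ≠ z • 1) :
    ∃ g ∈ Cfsg.spGL 2 F, g⁻¹ * x * g ∈ Cfsg.Geo.subalgebraNormalizer K := by
  classical
  obtain ⟨a, ha, hans⟩ : ∃ a ∈ K, ∀ c : F, a ≠ c • 1 := by
    by_contra hcon
    push Not at hcon
    have : Module.finrank F K ≤ 1 := finrank_le_one (1 : K) fun w => by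
      obtain ⟨c, hc⟩ := hcon w.1 w.2
      exact ⟨c, Subtype.ext hc.symm⟩
    rw [hK.finrank_eq] at this
    omega
  obtain ⟨α, β, hsq⟩ := eq_of_span_one (d := 2) (by norm_num) hK.finrank_eq ha hans (K.mul_mem ha ha)
  obtain ⟨j, hjd⟩ : ∃ j, j = (2 : F) • a - β • 1 := ⟨_, rfl⟩
  have hjK : j ∈ K := hjd ▸ K.sub_mem (K.smul_mem ha _) (K.smul_mem K.one_mem _)
  have hjns : ∀ c : F, j ≠ c • 1 := fun c hc => by
    refine hans ((c + β) * (2 : F)⁻¹) ?_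
    rw [mul_comm, ← smul_smul, add_smul, ← hc, hjd, sub_add_cancel, smul_smul, inv_mul_cancel₀ h2, one_smul]
  obtain ⟨ν, hνd⟩ : ∃ ν : F, ν = 4 * α + β * β := ⟨_, rfl⟩
  have hjj : j * j = ν • 1 := by
    rw [hjd, hνd, sub_mul, mul_sub, mul_sub]
    simp only [smul_mul_assoc, mul_smul_comm, mul_one, one_mul, hsq, smul_smul]
    module
  have hν : ¬ IsSquare ν := by
    rintro ⟨s, hs⟩
    have hmem : j - s • 1 ∈ K := K.sub_mem hjK (K.smul_mem K.one_mem s)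
    obtain ⟨y, -, hy⟩ := hK.inv _ hmem fun h => hjns s (sub_eq_zero.1 h)
    have hyl : y * (j - s • 1) = 1 := mul_eq_one_comm.1 hy
    have h0 : (j - s • 1) * (j + s • 1) = 0 := by
      rw [sub_mul, mul_add, mul_add, hjj, hs]
      simp only [mul_smul_comm, smul_mul_assoc, mul_one, one_mul, smul_smul]
      abel
    refine hjns (-s) ?_
    have h1 : j + s • 1 = 0 := by
      calc j + s • 1 = (y * (j - s • 1)) * (j + s • 1) := by rw [hyl, one_mul]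
        _ = 0 := by rw [mul_assoc, h0, mul_zero]
    rw [neg_smul, eq_neg_iff_add_eq_zero, h1]
  have hν0 : ν ≠ 0 := fun h0 => hν ⟨0, by rw [h0, mul_zero]⟩
  -- standard form of a self-adjoint root
  let A₀ : Matrix (Fin 2) (Fin 2) F := !![0, ν; 1, 0]
  have hstd : ∀ i : Matrix (Fin 2 ⊕ Fin 2) (Fin 2 ⊕ Fin 2) F,
      (∀ u v, Cfsg.sympForm 2 F (i *ᵥ u) v = Cfsg.sympForm 2 F u (i *ᵥ v)) → i * i = ν • 1 →
      ∃ g ∈ Cfsg.spGL 2 F, i * (g : Matrix (Fin 2 ⊕ Fin 2) (Fin 2 ⊕ Fin 2) F) =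
        (g : Matrix (Fin 2 ⊕ Fin 2) (Fin 2 ⊕ Fin 2) F) * Matrix.fromBlocks A₀ 0 0 A₀ᵀ := by
    intro i hsa hii
    have hiiv : ∀ u, i *ᵥ (i *ᵥ u) = ν • u := fun u => by
      rw [Matrix.mulVec_mulVec, hii, Matrix.smul_mulVec, Matrix.one_mulVec]
    have halt : ∀ u, Cfsg.sympForm 2 F (i *ᵥ u) u = 0 := fun u => by
      have h1 := hsa u u
      rw [SpGeom.form_skew (i *ᵥ u) u] at h1
      have h3 : (2 : F) * Cfsg.sympForm 2 F (i *ᵥ u) u = 0 := by linear_combination h1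
      exact (mul_eq_zero.1 h3).resolve_left h2
    obtain ⟨v, hv0⟩ : ∃ v : Fin 2 ⊕ Fin 2 → F, v ≠ 0 := ⟨Pi.single (Sum.inl 0) 1, by simp⟩
    obtain ⟨v', hv'd⟩ : ∃ v', v' = i *ᵥ v := ⟨_, rfl⟩
    have hli : ∀ c : F, v' ≠ c • v := fun c hc => by
      have h1 := hiiv v
      rw [← hv'd, hc, Matrix.mulVec_smul, ← hv'd, hc, smul_smul] at h1
      exact hν ⟨c, (smul_left_injective F hv0 h1).symm⟩
    obtain ⟨w', hw1, hw2⟩ : ∃ w', Cfsg.sympForm 2 F w' v = 0 ∧ Cfsg.sympForm 2 F w' v' = 1 := by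
      by_contra hcon
      push Not at hcon
      obtain ⟨y, hy⟩ := SpGeom.exists_form_ne_zero hv0
      have hy' : Cfsg.sympForm 2 F y v ≠ 0 := by rwa [SpGeom.form_skew, neg_ne_zero]
      refine hli (Cfsg.sympForm 2 F y v' / Cfsg.sympForm 2 F y v) ?_
      by_contra hne
      obtain ⟨u, hu⟩ := SpGeom.exists_form_ne_zero (sub_ne_zero.2 hne)
      have hu' : Cfsg.sympForm 2 F u (v' - (Cfsg.sympForm 2 F y v' / Cfsg.sympForm 2 F y v) • v) ≠ 0 := by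
        rwa [SpGeom.form_skew, neg_ne_zero]
      rw [SpGeom.form_sub_right, SpGeom.form_smul_right] at hu'
      have h0 : Cfsg.sympForm 2 F (u - (Cfsg.sympForm 2 F u v / Cfsg.sympForm 2 F y v) • y) v = 0 := by
        rw [SpGeom.form_sub_left, SpGeom.form_smul_left, div_mul_cancel₀ _ hy', sub_self]
      have h1 : Cfsg.sympForm 2 F (u - (Cfsg.sympForm 2 F u v / Cfsg.sympForm 2 F y v) • y) v' ≠ 0 := by
        rw [SpGeom.form_sub_left, SpGeom.form_smul_left]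
        intro h
        apply hu'
        linear_combination h
      refine hcon ((Cfsg.sympForm 2 F (u - (Cfsg.sympForm 2 F u v / Cfsg.sympForm 2 F y v) • y) v')⁻¹ •
        (u - (Cfsg.sympForm 2 F u v / Cfsg.sympForm 2 F y v) • y)) ?_ ?_
      · rw [SpGeom.form_smul_left, h0, mul_zero]
      · rw [SpGeom.form_smul_left, inv_mul_cancel₀ h1]
    have hvv : Cfsg.sympForm 2 F v v' = 0 := by rw [hv'd, SpGeom.form_skew, halt, neg_zero]
    have hw'w : Cfsg.sympForm 2 F (i *ᵥ w') w' = 0 := halt w'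
    have hwv : Cfsg.sympForm 2 F (i *ᵥ w') v = 1 := by rw [hsa, ← hv'd, hw2]
    have hwv' : Cfsg.sympForm 2 F (i *ᵥ w') v' = 0 := by
      rw [hsa, hv'd, hiiv, SpGeom.form_smul_right, hw1, mul_zero]
    obtain ⟨g, hg, hgi⟩ := exists_gl_of_family ![v, v'] ![i *ᵥ w', w'] (by
      intro a b
      fin_cases a <;> fin_cases b <;>
        simp [SpGeom.form_self, hvv, SpGeom.form_skew v v', hw1, hw2, hw'w, hwv, hwv',
          SpGeom.form_skew (i *ᵥ w') w'])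
    refine ⟨g, hg, ext_single (fun a => ?_) fun a => ?_⟩
    · rw [← Matrix.mulVec_mulVec, ← Matrix.mulVec_mulVec, (hgi a).1]
      have e : Matrix.fromBlocks A₀ 0 0 A₀ᵀ *ᵥ (Pi.single (Sum.inl a) 1 : Fin 2 ⊕ Fin 2 → F) =
          A₀ 0 a • Pi.single (Sum.inl 0) 1 + A₀ 1 a • Pi.single (Sum.inl 1) 1 := by
        rw [Matrix.mulVec_single_one]
        funext b
        rcases b with b | b <;> fin_cases b <;> simp [Matrix.col_apply]
      rw [e, Matrix.mulVec_add, Matrix.mulVec_smul, Matrix.mulVec_smul, (hgi 0).1, (hgi 1).1]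
      fin_cases a <;> simp [A₀, hv'd, hiiv]
    · rw [← Matrix.mulVec_mulVec, ← Matrix.mulVec_mulVec, (hgi a).2]
      have e : Matrix.fromBlocks A₀ 0 0 A₀ᵀ *ᵥ (Pi.single (Sum.inr a) 1 : Fin 2 ⊕ Fin 2 → F) =
          A₀ a 0 • Pi.single (Sum.inr 0) 1 + A₀ a 1 • Pi.single (Sum.inr 1) 1 := by
        rw [Matrix.mulVec_single_one]
        funext b
        rcases b with b | b <;> fin_cases b <;> simp [Matrix.col_apply]
      rw [e, Matrix.mulVec_add, Matrix.mulVec_smul, Matrix.mulVec_smul, (hgi 0).2, (hgi 1).2]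
      fin_cases a <;> simp [A₀, hiiv]
  obtain ⟨gK, hgK, hgKj⟩ := hstd j (fun u v => hKf j hjK u v) hjj
  -- reduction
  have finish : ∀ (g : GL (Fin 2 ⊕ Fin 2) F), g ∈ Cfsg.spGL 2 F →
      ∀ (i D : Matrix (Fin 2 ⊕ Fin 2) (Fin 2 ⊕ Fin 2) F) (ε : F), ε * ε = 1 →
      (∀ u v, Cfsg.sympForm 2 F (i *ᵥ u) v = Cfsg.sympForm 2 F u (i *ᵥ v)) → i * i = ν • 1 →
      D * i = ε • (i * D) →
      (x : Matrix (Fin 2 ⊕ Fin 2) (Fin 2 ⊕ Fin 2) F) * g = (g : Matrix (Fin 2 ⊕ Fin 2) (Fin 2 ⊕ Fin 2) F) * D →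
      ∃ g ∈ Cfsg.spGL 2 F, g⁻¹ * x * g ∈ Cfsg.Geo.subalgebraNormalizer K := by
    intro g hg i D ε hε hi hii hDi hxg
    obtain ⟨gi, hgi, hgij⟩ := hstd i hi hii
    refine ⟨g * gi * gK⁻¹, Subgroup.mul_mem _ (Subgroup.mul_mem _ hg hgi) (Subgroup.inv_mem _ hgK),
      mem_normalizer (d := 2) (by norm_num) hK.finrank_eq hjK hjns _ ε hε ?_⟩
    obtain ⟨h, hh⟩ : ∃ h, h = gi * gK⁻¹ := ⟨_, rfl⟩
    have hjh : i * (h : Matrix (Fin 2 ⊕ Fin 2) (Fin 2 ⊕ Fin 2) F) =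
        (h : Matrix (Fin 2 ⊕ Fin 2) (Fin 2 ⊕ Fin 2) F) * j := by
      rw [hh, Units.val_mul, ← mul_assoc, hgij, mul_assoc, mul_assoc]
      congr 1
      calc _ = ((gK⁻¹ : GL (Fin 2 ⊕ Fin 2) F) : Matrix (Fin 2 ⊕ Fin 2) (Fin 2 ⊕ Fin 2) F) *
            ((gK : Matrix (Fin 2 ⊕ Fin 2) (Fin 2 ⊕ Fin 2) F) * Matrix.fromBlocks A₀ 0 0 A₀ᵀ) *
            ((gK⁻¹ : GL (Fin 2 ⊕ Fin 2) F) : Matrix (Fin 2 ⊕ Fin 2) (Fin 2 ⊕ Fin 2) F) := by
              rw [← mul_assoc ((gK⁻¹ : GL (Fin 2 ⊕ Fin 2) F) : Matrix (Fin 2 ⊕ Fin 2) (Fin 2 ⊕ Fin 2) F),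
                ← Units.val_mul, inv_mul_cancel, Units.val_one, one_mul]
        _ = _ := by
              rw [← hgKj, mul_assoc, mul_assoc, ← Units.val_mul, mul_inv_cancel, Units.val_one, mul_one]
    have hhinv : ((h⁻¹ : GL (Fin 2 ⊕ Fin 2) F) : Matrix (Fin 2 ⊕ Fin 2) (Fin 2 ⊕ Fin 2) F) * h = 1 := by
      rw [← Units.val_mul, inv_mul_cancel, Units.val_one]
    have hhinv' : (h : Matrix (Fin 2 ⊕ Fin 2) (Fin 2 ⊕ Fin 2) F) *
        ((h⁻¹ : GL (Fin 2 ⊕ Fin 2) F) : Matrix (Fin 2 ⊕ Fin 2) (Fin 2 ⊕ Fin 2) F) = 1 := by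
      rw [← Units.val_mul, mul_inv_cancel, Units.val_one]
    have hjh' : ((h⁻¹ : GL (Fin 2 ⊕ Fin 2) F) : Matrix (Fin 2 ⊕ Fin 2) (Fin 2 ⊕ Fin 2) F) * i =
        j * ((h⁻¹ : GL (Fin 2 ⊕ Fin 2) F) : Matrix (Fin 2 ⊕ Fin 2) (Fin 2 ⊕ Fin 2) F) := by
      calc _ = ((h⁻¹ : GL (Fin 2 ⊕ Fin 2) F) : Matrix (Fin 2 ⊕ Fin 2) (Fin 2 ⊕ Fin 2) F) * (i * h) *
            ((h⁻¹ : GL (Fin 2 ⊕ Fin 2) F) : Matrix (Fin 2 ⊕ Fin 2) (Fin 2 ⊕ Fin 2) F) := by
              simp only [mul_assoc]; rw [hhinv', mul_one]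
        _ = _ := by rw [hjh, ← mul_assoc, hhinv, one_mul]
    have hval : (((g * gi * gK⁻¹)⁻¹ * x * (g * gi * gK⁻¹) : GL (Fin 2 ⊕ Fin 2) F) :
        Matrix (Fin 2 ⊕ Fin 2) (Fin 2 ⊕ Fin 2) F) =
        ((h⁻¹ : GL (Fin 2 ⊕ Fin 2) F) : Matrix (Fin 2 ⊕ Fin 2) (Fin 2 ⊕ Fin 2) F) * D * h := by
      rw [mul_assoc g gi, ← hh, _root_.mul_inv_rev]
      simp only [Units.val_mul]
      rw [show ((h⁻¹ : GL (Fin 2 ⊕ Fin 2) F) : Matrix (Fin 2 ⊕ Fin 2) (Fin 2 ⊕ Fin 2) F) *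
          ((g⁻¹ : GL (Fin 2 ⊕ Fin 2) F) : Matrix (Fin 2 ⊕ Fin 2) (Fin 2 ⊕ Fin 2) F) *
          (x : Matrix (Fin 2 ⊕ Fin 2) (Fin 2 ⊕ Fin 2) F) *
          ((g : Matrix (Fin 2 ⊕ Fin 2) (Fin 2 ⊕ Fin 2) F) * h) =
          ((h⁻¹ : GL (Fin 2 ⊕ Fin 2) F) : Matrix (Fin 2 ⊕ Fin 2) (Fin 2 ⊕ Fin 2) F) *
          (((g⁻¹ : GL (Fin 2 ⊕ Fin 2) F) : Matrix (Fin 2 ⊕ Fin 2) (Fin 2 ⊕ Fin 2) F) *
          ((x : Matrix (Fin 2 ⊕ Fin 2) (Fin 2 ⊕ Fin 2) F) * g)) * h by simp only [mul_assoc], hxg,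
        ← mul_assoc ((g⁻¹ : GL (Fin 2 ⊕ Fin 2) F) : Matrix (Fin 2 ⊕ Fin 2) (Fin 2 ⊕ Fin 2) F), ← Units.val_mul,
        inv_mul_cancel, Units.val_one, one_mul]
    rw [hval, mul_assoc _ _ j, ← hjh, ← mul_assoc j, ← mul_assoc j, ← hjh', mul_assoc _ D,
      ← mul_assoc D, hDi, smul_mul_assoc, mul_smul_comm]
    simp only [mul_assoc]
  have hform := GeoSp.mem_spGL.1 hx
  have hxx : ∀ u, (x : Matrix (Fin 2 ⊕ Fin 2) (Fin 2 ⊕ Fin 2) F) *ᵥ ((x : Matrix (Fin 2 ⊕ Fin 2) (Fin 2 ⊕ Fin 2) F) *ᵥ u) = z • u := fun u => by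
    rw [Matrix.mulVec_mulVec, hz, Matrix.smul_mulVec, Matrix.one_mulVec]
  have hsaS : ∀ (A : Matrix (Fin 2) (Fin 2) F) u v, Cfsg.sympForm 2 F (Matrix.fromBlocks A 0 0 Aᵀ *ᵥ u) v =
      Cfsg.sympForm 2 F u (Matrix.fromBlocks A 0 0 Aᵀ *ᵥ v) := by
    intro A u v
    rw [SpGeom.form_def, SpGeom.form_def]
    simp [Fin.sum_univ_two, Matrix.fromBlocks_mulVec, Matrix.mulVec, dotProduct, Matrix.vecHead, Matrix.vecTail]
    ring
  have hz2 : z * z = 1 := by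
    obtain ⟨y, hy⟩ := SpGeom.exists_form_ne_zero (F := F) (v := (Pi.single (Sum.inl 0) 1 : Fin 2 ⊕ Fin 2 → F)) (by simp)
    have h1 := hform ((x : Matrix (Fin 2 ⊕ Fin 2) (Fin 2 ⊕ Fin 2) F) *ᵥ Pi.single (Sum.inl 0) 1)
      ((x : Matrix (Fin 2 ⊕ Fin 2) (Fin 2 ⊕ Fin 2) F) *ᵥ y)
    rw [hxx, hxx, hform, SpGeom.form_smul_left, SpGeom.form_smul_right, ← mul_assoc] at h1
    exact mul_right_cancel₀ hy (h1.trans (one_mul _).symm)
  rcases mul_self_eq_one_iff.1 hz2 with rfl | rfl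
  · obtain ⟨g, hg, e, he, hxg⟩ := exists_conj_eigen h2 hform (by rw [hz, one_smul])
    have he01 : e 0 + e 1 = 0 := by
      rcases mul_self_eq_one_iff.1 (he 0) with h0 | h0 <;> rcases mul_self_eq_one_iff.1 (he 1) with h1 | h1
      · exfalso
        refine hns 1 ?_
        have : e = fun _ => (1 : F) := by funext i; fin_cases i <;> assumption
        rw [this, show (Sum.elim (fun _ => (1 : F)) (fun _ => (1 : F)) : Fin 2 ⊕ Fin 2 → F) = fun _ => 1 by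
          funext i; cases i <;> rfl, Matrix.diagonal_one, mul_one] at hxg
        rw [one_smul]
        have h3 : x * g = g := Units.ext (by rw [Units.val_mul]; exact hxg)
        rw [mul_eq_right.1 h3, Units.val_one]
      · rw [h0, h1, add_neg_cancel]
      · rw [h0, h1, neg_add_cancel]
      · exfalso
        refine hns (-1) ?_
        have : e = fun _ => (-1 : F) := by funext i; fin_cases i <;> assumption
        rw [this, show (Sum.elim (fun _ => (-1 : F)) (fun _ => (-1 : F)) : Fin 2 ⊕ Fin 2 → F) = fun _ => -1 by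
          funext i; cases i <;> rfl] at hxg
        have hd1 : Matrix.diagonal (fun _ : Fin 2 ⊕ Fin 2 => (-1 : F)) = (-1 : F) • 1 := by
          rw [Matrix.smul_one_eq_diagonal]
        rw [hd1, mul_smul_comm, mul_one] at hxg
        calc (x : Matrix (Fin 2 ⊕ Fin 2) (Fin 2 ⊕ Fin 2) F) = (x : Matrix (Fin 2 ⊕ Fin 2) (Fin 2 ⊕ Fin 2) F) * g *
              ((g⁻¹ : GL (Fin 2 ⊕ Fin 2) F) : Matrix (Fin 2 ⊕ Fin 2) (Fin 2 ⊕ Fin 2) F) := by
              rw [mul_assoc, ← Units.val_mul, mul_inv_cancel, Units.val_one, mul_one]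
          _ = _ := by rw [hxg, smul_mul_assoc, ← Units.val_mul, mul_inv_cancel, Units.val_one]
    refine finish g hg (Matrix.fromBlocks A₀ 0 0 A₀ᵀ) (Matrix.diagonal (Sum.elim e e)) (-1) (by ring) (hsaS A₀) ?_ ?_ hxg
    · rw [Matrix.fromBlocks_multiply, ← Matrix.fromBlocks_one, Matrix.fromBlocks_smul]
      congr 1 <;> (ext i j; fin_cases i <;> fin_cases j <;> simp [A₀, Matrix.mul_apply, Fin.sum_univ_two])
    · have e1 : e 1 = -e 0 := by linear_combination he01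
      ext i j
      rcases i with i | i <;> rcases j with j | j <;> fin_cases i <;> fin_cases j <;>
        simp [A₀, Matrix.diagonal_mul, Matrix.mul_diagonal, e1] <;> ring
  · obtain ⟨a, b, hab⟩ := exists_binary h2 (neg_ne_zero.2 (one_ne_zero : (1 : F) ≠ 0)) ν
    have hskx : IsSkew (x : Matrix (Fin 2 ⊕ Fin 2) (Fin 2 ⊕ Fin 2) F) := fun u v => by
      have h1 := hform u ((x : Matrix (Fin 2 ⊕ Fin 2) (Fin 2 ⊕ Fin 2) F) *ᵥ v)
      rw [hxx, neg_one_smul, ← neg_one_smul F v, SpGeom.form_smul_right] at h1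
      linear_combination -h1
    obtain ⟨g, hg, hgj⟩ := exists_conj_stdJ h2 hskx (neg_ne_zero.2 one_ne_zero) hz
    let A : Matrix (Fin 2) (Fin 2) F := !![a, b; b, -a]
    refine finish g hg (Matrix.fromBlocks A 0 0 Aᵀ) (stdJ 2 (-1)) 1 (one_mul 1) (hsaS A) ?_ ?_ hgj
    · rw [Matrix.fromBlocks_multiply, ← Matrix.fromBlocks_one, Matrix.fromBlocks_smul]
      congr 1 <;> (ext i j; fin_cases i <;> fin_cases j <;> simp [A, Matrix.mul_apply, Fin.sum_univ_two] <;>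
        first
          | linear_combination hab
          | ring)
    · have hAT : Aᵀ = A := by ext i j; fin_cases i <;> fin_cases j <;> simp [A]
      rw [one_smul, hAT, stdJ, Matrix.fromBlocks_multiply, Matrix.fromBlocks_multiply]
      simp

/-- The criterion. -/
theorem main {p : ℕ} [Fact p.Prime] [CharP F p] (hd : 2 ≤ d) (k : ℕ) (hk : k.Prime) (K : Subalgebra F 𝕄)
    (hK : Cfsg.Geo.IsFieldSubalgebra k K) (hKf : Cfsg.Geo.IsSelfAdjointFor 𝕗 K)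
    (hKalt : ∀ a ∈ K, ∀ v : 𝕍, 𝕗 (a *ᵥ v) v = 0) (r : ℕ) [Fact r.Prime]
    (hΩ : r ∣ (Cfsg.Geo.subalgebraNormalizer K).relIndex (Cfsg.spGL d F)) :
    (∀ x ∈ Cfsg.spGL d F, (∃ z : F, ((x ^ r : 𝔾) : 𝕄) = z • (1 : 𝕄)) → (∀ z : F, (x : 𝕄) ≠ z • (1 : 𝕄)) →
      ∃ g ∈ Cfsg.spGL d F, g⁻¹ * x * g ∈ Cfsg.Geo.subalgebraNormalizer K) ↔
      (r = 2 ∧ d = 2 ∧ k = 2 ∧ Odd (Fintype.card F)) := by
  constructor
  · intro hall
    by_contra hexc
    have hr : r.Prime := Fact.out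
    obtain ⟨hdiv, hidx⟩ := index_primes (by omega) hk hK hKf hKalt
    obtain ⟨m, x, hx, hm⟩ := exists_elem (p := p) hd hk hdiv (hidx r hr hΩ) hexc
    exact not_elem (by omega) hk hK hKf hKalt hr hall hx hm
  · rintro ⟨rfl, rfl, rfl, hodd⟩ x hx ⟨z, hz⟩ hns
    have h2 : (2 : F) ≠ 0 := by
      intro h0
      have hchar : ringChar F = 2 := by
        have hdvd := ringChar.dvd (R := F) (x := 2) (by exact_mod_cast h0)
        exact ((Nat.dvd_prime Nat.prime_two).1 hdvd).resolve_left CharP.ringChar_ne_one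
      have := FiniteField.even_card_of_char_two hchar
      obtain ⟨t, ht⟩ := hodd
      omega
    exact two_fixes h2 hK hKf hx (z := z) (by rw [← hz, sq, Units.val_mul]) hns

end CfsgLib.SpExt
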