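import Cfsg.Agent.SpExt.Models
import Cfsg.Agent.SpGeom.Order
import Mathlib

/-!
The symplectic group over the extension field inside the centraliser.
-/

set_option autoImplicit false

namespace CfsgLib.SpExt

open Matrix

universe u

variable {F : Type u} [Field F] [Fintype F] {d : ℕ}

local notation "𝕍" => (Fin d ⊕ Fin d → F)
local notation "𝕄" => Matrix (Fin d ⊕ Fin d) (Fin d ⊕ Fin d) F
local notation "𝔾" => GL (Fin d ⊕ Fin d) F
local notation "𝕗" => Cfsg.sympForm d F

theorem exists_embed {E : Type u} [Field E] [Fintype E] [Algebra F E] (ρ : E →ₐ[F] 𝕄)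
    (hsa : ∀ a u v, 𝕗 (ρ a *ᵥ u) v = 𝕗 u (ρ a *ᵥ v)) (halt : ∀ a v, 𝕗 (ρ a *ᵥ v) v = 0) :
    ∃ m : ℕ, d = Module.finrank F E * m ∧ ∃ H : Subgroup 𝔾,
      Nat.card H = Fintype.card E ^ (m ^ 2) * ∏ i ∈ Finset.range m, (Fintype.card E ^ (2 * (i + 1)) - 1) ∧
      H ≤ Cfsg.spGL d F ∧ ∀ g ∈ H, ∀ a, (g : 𝕄) * ρ a = ρ a * (g : 𝕄) := by
  classical
  haveI : FiniteDimensional F E := Module.Finite.of_finite
  letI : Module E 𝕍 := Module.compHom 𝕍 ((Matrix.toLinAlgEquiv').toAlgHom.comp ρ).toRingHom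
  have hsmul : ∀ (a : E) (v : 𝕍), a • v = ρ a *ᵥ v := fun a v => rfl
  haveI : IsScalarTower F E 𝕍 := ⟨fun c a z => by
    rw [hsmul, hsmul, map_smul, Matrix.smul_mulVec]⟩
  haveI : Module.Finite E 𝕍 := Module.Finite.of_restrictScalars_finite F E 𝕍
  have hT : (Algebra.traceForm F E).Nondegenerate := traceForm_nondegenerate F E
  let l : 𝕍 → 𝕍 → Module.Dual F E := fun u v =>
    { toFun := fun a => 𝕗 (ρ a *ᵥ u) v
      map_add' := fun a b => by rw [map_add, Matrix.add_mulVec, SpGeom.form_add_left]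
      map_smul' := fun c a => by rw [map_smul, Matrix.smul_mulVec, SpGeom.form_smul_left]; rfl }
  let b : 𝕍 → 𝕍 → E := fun u v => (LinearMap.BilinForm.toDual _ hT).symm (l u v)
  have hb : ∀ u v a, Algebra.trace F E (b u v * a) = 𝕗 (ρ a *ᵥ u) v := fun u v a =>
    LinearMap.BilinForm.apply_toDual_symm_apply (hB := hT) (l u v) a
  have hext : ∀ x y : E, (∀ a, Algebra.trace F E (x * a) = Algebra.trace F E (y * a)) → x = y := fun x y h =>
    sub_eq_zero.1 (SpSkew.trace_nondeg (F := F) fun a => by rw [sub_mul, map_sub, h, sub_self])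
  let B : LinearMap.BilinForm E 𝕍 := LinearMap.mk₂ E b
    (fun u u' v => hext _ _ fun a => by
      rw [add_mul, map_add, hb, hb, hb, Matrix.mulVec_add, SpGeom.form_add_left])
    (fun c u v => hext _ _ fun a => by
      rw [hb, smul_eq_mul, mul_comm c, mul_assoc, hb, hsmul, Matrix.mulVec_mulVec, ← map_mul ρ, mul_comm a c])
    (fun u v v' => hext _ _ fun a => by
      rw [add_mul, map_add, hb, hb, hb, SpGeom.form_add_right])
    (fun c u v => hext _ _ fun a => by
      rw [hb, smul_eq_mul, mul_comm c, mul_assoc, hb, hsmul, ← hsa, Matrix.mulVec_mulVec, ← map_mul ρ])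
  have hB : ∀ u v, B u v = b u v := fun u v => rfl
  have hBA : B.IsAlt := fun u => hext _ _ fun a => by rw [hB, hb, halt, zero_mul, map_zero]
  have hBS : B.SeparatingLeft := fun u hu => by
    by_contra hu0
    obtain ⟨y, hy⟩ := SpGeom.exists_form_ne_zero hu0
    refine hy ?_
    have := hb u y 1
    rw [← hB, hu y, zero_mul, map_zero, map_one, Matrix.one_mulVec] at this
    exact this.symm
  obtain ⟨m, k₀, bas, -, -, -, hrad⟩ := Cfsg.Agent.S0752.result B hBA
  have hk₀ : k₀ = 0 := by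
    rcases Nat.eq_zero_or_pos k₀ with h | h
    · exact h
    · exact absurd (hBS _ (hrad ⟨0, h⟩)) (bas.ne_zero _)
  subst hk₀
  have hdimE : Module.finrank E 𝕍 = 2 * m := by
    rw [Module.finrank_eq_card_basis bas]
    simp [two_mul]
  have hd : d = Module.finrank F E * m := by
    have h1 := Module.finrank_mul_finrank F E 𝕍
    rw [hdimE, Module.finrank_fintype_fun_eq_card, Fintype.card_sum, Fintype.card_fin] at h1
    have h3 : Module.finrank F E * (2 * m) = 2 * (Module.finrank F E * m) := by ring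
    omega
  obtain ⟨g, hg⟩ := Forms.exists_symp_coord hdimE B hBA hBS
  let ψ : Matrix.symplecticGroup (Fin m) E →* 𝕄 :=
    { toFun := fun A => LinearMap.toMatrix' (((g.symm : (Fin m ⊕ Fin m → E) →ₗ[E] 𝕍) ∘ₗ
        Matrix.mulVecLin (A : Matrix (Fin m ⊕ Fin m) (Fin m ⊕ Fin m) E) ∘ₗ
        (g : 𝕍 →ₗ[E] (Fin m ⊕ Fin m → E))).restrictScalars F)
      map_one' := by
        rw [← LinearMap.toMatrix'_id]
        congr 1
        exact LinearMap.ext fun v => by simp
      map_mul' := fun A A' => by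
        rw [← LinearMap.toMatrix'_comp]
        congr 1
        exact LinearMap.ext fun v => by simp [Matrix.mulVec_mulVec] }
  have hψ : ∀ A v, ψ A *ᵥ v = g.symm ((A : Matrix (Fin m ⊕ Fin m) (Fin m ⊕ Fin m) E) *ᵥ g v) := fun A v =>
    LinearMap.toMatrix'_mulVec _ v
  have hinj : Function.Injective ψ.toHomUnits := fun A A' h => by
    refine Subtype.ext (Matrix.ext_iff_mulVec.2 fun v => g.symm.injective ?_)
    have h1 : ψ A = ψ A' := congrArg Units.val h
    have h3 := hψ A (g.symm v)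
    rw [h1, hψ, g.apply_symm_apply] at h3
    exact h3.symm
  refine ⟨m, hd, ψ.toHomUnits.range, ?_, ?_, ?_⟩
  · rw [← SpGeom.card_Sp]
    exact (Nat.card_congr (MonoidHom.ofInjective hinj).toEquiv).symm
  · rintro _ ⟨A, rfl⟩
    refine GeoSp.mem_spGL.2 fun u v => ?_
    show 𝕗 (ψ A *ᵥ u) (ψ A *ᵥ v) = 𝕗 u v
    have h1 : b (ψ A *ᵥ u) (ψ A *ᵥ v) = b u v := by
      rw [← hB, ← hB, ← hg, hψ, hψ, g.apply_symm_apply, g.apply_symm_apply, SpGeom.form_mulVec, hg]
    have h3 := hb (ψ A *ᵥ u) (ψ A *ᵥ v) 1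
    rw [h1, hb, map_one, Matrix.one_mulVec, Matrix.one_mulVec] at h3
    exact h3.symm
  · rintro _ ⟨A, rfl⟩ a
    show ψ A * ρ a = ρ a * ψ A
    refine Matrix.ext_iff_mulVec.2 fun v => ?_
    rw [← Matrix.mulVec_mulVec, ← Matrix.mulVec_mulVec, hψ, hψ, ← hsmul, ← hsmul, map_smul, Matrix.mulVec_smul,
      map_smul]

end CfsgLib.SpExt
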