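import Cfsg.Agent.SpSkew.Elements
import Mathlib

/-!
Symplectic elements of prime order commuting with no self-adjoint alternating field.
-/

set_option autoImplicit false

namespace CfsgLib.SpExt

open Matrix

universe u

variable {F : Type u} [Field F] {d : ℕ}

local notation "𝕍" => (Fin d ⊕ Fin d → F)
local notation "𝕄" => Matrix (Fin d ⊕ Fin d) (Fin d ⊕ Fin d) F
local notation "𝔾" => GL (Fin d ⊕ Fin d) F
local notation "𝕗" => Cfsg.sympForm d F

/-- Commutes with no self-adjoint alternating field of degree `k`. -/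
def NoField (k : ℕ) (x : Matrix (Fin d ⊕ Fin d) (Fin d ⊕ Fin d) F) : Prop :=
  ∀ (E : Type u) [Field E] [Algebra F E] (ρ : E →ₐ[F] Matrix (Fin d ⊕ Fin d) (Fin d ⊕ Fin d) F),
    Module.finrank F E = k → (∀ a u v, Cfsg.sympForm d F (ρ a *ᵥ u) v = Cfsg.sympForm d F u (ρ a *ᵥ v)) →
    (∀ a v, Cfsg.sympForm d F (ρ a *ᵥ v) v = 0) → ∃ a, ρ a * x ≠ x * ρ a

/-- The required element. -/
def Elem (k r m : ℕ) (x : GL (Fin d ⊕ Fin d) F) : Prop :=
  x ∈ Cfsg.spGL d F ∧ (x : 𝕄) ^ r = 1 ∧ (∀ z : F, (x : 𝕄) ≠ z • 1) ∧ NoField k (x : 𝕄) ∧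
    ∃ W : Submodule F 𝕍, m ≤ Module.finrank F W ∧ ∀ w ∈ W, (x : 𝕄) *ᵥ w = w

theorem eigen_false {E : Type u} [Field E] [Algebra F E] {M : Type*} [AddCommGroup M] [Module F M]
    (ρ : E →ₐ[F] Module.End F M) {a : E} (ha : ∀ c : F, algebraMap F E c ≠ a) {v : M} (hv : v ≠ 0) {lam : F}
    (h : ρ a v = lam • v) : False := by
  have h0 : ρ (a - algebraMap F E lam) v = 0 := by
    rw [map_sub, LinearMap.sub_apply, AlgHom.commutes, Module.algebraMap_end_apply, h, sub_self]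
  have hne : a - algebraMap F E lam ≠ 0 := sub_ne_zero.2 (Ne.symm (ha lam))
  have := congrArg (ρ (a - algebraMap F E lam)⁻¹) h0
  rw [map_zero, ← Module.End.mul_apply, ← map_mul ρ, inv_mul_cancel₀ hne, map_one, Module.End.one_apply] at this
  exact hv this

theorem exists_not_algebraMap {E : Type u} [Field E] [Algebra F E] {k : ℕ} (hk : 1 < k)
    (hE : Module.finrank F E = k) : ∃ a : E, ∀ c : F, algebraMap F E c ≠ a := by
  by_contra hcon
  push Not at hcon
  have : Module.finrank F E ≤ 1 := finrank_le_one (1 : E) fun w => by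
    obtain ⟨c, hc⟩ := hcon w
    exact ⟨c, by rw [← hc, Algebra.algebraMap_eq_smul_one]⟩
  omega

/-- Left multiplication conjugated along a coordinate map, as endomorphisms. -/
theorem exists_of_model' {k r m : ℕ} {V₀ : Type u} [AddCommGroup V₀] [Module F V₀] [FiniteDimensional F V₀]
    (hdim : Module.finrank F V₀ = 2 * d) (B : LinearMap.BilinForm F V₀) (hA : B.IsAlt) (hB : B.SeparatingLeft)
    (T : V₀ →ₗ[F] V₀) (hT : ∀ u v, B (T u) (T v) = B u v) (hTr : ∀ u, (T ^ r) u = u)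
    (hns : ∀ z : F, ∃ u, T u ≠ z • u) (W : Submodule F V₀) (hW : m ≤ Module.finrank F W)
    (hWT : ∀ w ∈ W, T w = w)
    (havoid : ∀ (E : Type u) [Field E] [Algebra F E] (ρ : E →ₐ[F] Module.End F V₀), Module.finrank F E = k →
      (∀ a u v, B (ρ a u) v = B u (ρ a v)) → (∀ a v, B (ρ a v) v = 0) → ∃ a u, ρ a (T u) ≠ T (ρ a u)) :
    ∃ x : GL (Fin d ⊕ Fin d) F, Elem k r m x ∧ ∃ g : V₀ ≃ₗ[F] (Fin d ⊕ Fin d → F), ∀ u, (x : 𝕄) *ᵥ g u = g (T u) := by
  classical
  obtain ⟨g, hg⟩ := Forms.exists_symp_coord hdim B hA hB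
  let S : 𝕍 →ₗ[F] 𝕍 := (g : V₀ →ₗ[F] _) ∘ₗ T ∘ₗ (g.symm : 𝕍 →ₗ[F] V₀)
  have hS : ∀ v, LinearMap.toMatrix' S *ᵥ v = g (T (g.symm v)) := fun v => LinearMap.toMatrix'_mulVec S v
  have hpow : ∀ (n : ℕ) v, (LinearMap.toMatrix' S) ^ n *ᵥ v = g ((T ^ n) (g.symm v)) := by
    intro n
    induction n with
    | zero => intro v; simp
    | succ n ih =>
      intro v
      rw [pow_succ', ← Matrix.mulVec_mulVec, ih, hS, LinearEquiv.symm_apply_apply, pow_succ', Module.End.mul_apply]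
  have hform : ∀ u v, 𝕗 (LinearMap.toMatrix' S *ᵥ u) (LinearMap.toMatrix' S *ᵥ v) = 𝕗 u v := fun u v => by
    rw [hS, hS, hg, hT, ← hg, LinearEquiv.apply_symm_apply, LinearEquiv.apply_symm_apply]
  have hdet : (LinearMap.toMatrix' S).det ≠ 0 := by
    intro h0
    obtain ⟨u, hu, hu0⟩ := Matrix.exists_mulVec_eq_zero_iff.2 h0
    obtain ⟨y, hy⟩ := SpGeom.exists_form_ne_zero hu
    rw [← hform, hu0, SpGeom.form_zero_left] at hy
    exact hy rfl
  refine ⟨GeneralLinearGroup.mkOfDetNeZero _ hdet, ⟨GeoSp.mem_spGL.2 hform, ?_, ?_, ?_, W.map (g : V₀ →ₗ[F] 𝕍), ?_, ?_⟩,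
    g, fun u => (hS (g u)).trans (by rw [LinearEquiv.symm_apply_apply])⟩
  · refine Matrix.ext_iff_mulVec.2 fun v => ?_
    show LinearMap.toMatrix' S ^ r *ᵥ v = _
    rw [hpow, hTr, LinearEquiv.apply_symm_apply, Matrix.one_mulVec]
  · intro z hz
    obtain ⟨u, hu⟩ := hns z
    refine hu (g.injective ?_)
    have := congrArg (fun A : 𝕄 => A *ᵥ g u) hz
    simp only [Matrix.smul_mulVec, Matrix.one_mulVec] at this
    rw [map_smul, ← this]
    show _ = LinearMap.toMatrix' S *ᵥ g u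
    rw [hS, LinearEquiv.symm_apply_apply]
  · intro E _ _ ρ hE hsa halt
    let ρ₀ : E →ₐ[F] Module.End F V₀ :=
      ((LinearEquiv.conjAlgEquiv F g.symm).toAlgHom.comp (Matrix.toLinAlgEquiv').toAlgHom).comp ρ
    have hρ₀ : ∀ a u, ρ₀ a u = g.symm (ρ a *ᵥ g u) := fun a u => rfl
    obtain ⟨a, u, hu⟩ := havoid E ρ₀ hE (fun a u v => by
      rw [← hg, ← hg, hρ₀, hρ₀, LinearEquiv.apply_symm_apply, LinearEquiv.apply_symm_apply]
      exact hsa a _ _) (fun a v => by
      rw [← hg, hρ₀, LinearEquiv.apply_symm_apply]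
      exact halt a _)
    refine ⟨a, fun hcomm => hu ?_⟩
    have := congrArg (fun A : 𝕄 => A *ᵥ g u) hcomm
    simp only [← Matrix.mulVec_mulVec] at this
    have hS' : ∀ v, (GeneralLinearGroup.mkOfDetNeZero _ hdet : 𝕄) *ᵥ v = g (T (g.symm v)) := hS
    rw [hS', hS', LinearEquiv.symm_apply_apply] at this
    rw [hρ₀, this, LinearEquiv.symm_apply_apply, hρ₀]
  · exact hW.trans (Submodule.equivMapOfInjective _ g.injective W).finrank_eq.le
  · rintro _ ⟨w, hw, rfl⟩
    show LinearMap.toMatrix' S *ᵥ g w = g w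
    rw [hS, LinearEquiv.symm_apply_apply, hWT w hw]

theorem exists_of_model {k r m : ℕ} {V₀ : Type u} [AddCommGroup V₀] [Module F V₀] [FiniteDimensional F V₀]
    (hdim : Module.finrank F V₀ = 2 * d) (B : LinearMap.BilinForm F V₀) (hA : B.IsAlt) (hB : B.SeparatingLeft)
    (T : V₀ →ₗ[F] V₀) (hT : ∀ u v, B (T u) (T v) = B u v) (hTr : ∀ u, (T ^ r) u = u)
    (hns : ∀ z : F, ∃ u, T u ≠ z • u) (W : Submodule F V₀) (hW : m ≤ Module.finrank F W)
    (hWT : ∀ w ∈ W, T w = w)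
    (havoid : ∀ (E : Type u) [Field E] [Algebra F E] (ρ : E →ₐ[F] Module.End F V₀), Module.finrank F E = k →
      (∀ a u v, B (ρ a u) v = B u (ρ a v)) → (∀ a v, B (ρ a v) v = 0) → ∃ a u, ρ a (T u) ≠ T (ρ a u)) :
    ∃ x : GL (Fin d ⊕ Fin d) F, Elem k r m x := by
  obtain ⟨x, hx, -⟩ := exists_of_model' hdim B hA hB T hT hTr hns W hW hWT havoid
  exact ⟨x, hx⟩

theorem transvection_elem {p : ℕ} [Fact p.Prime] [CharP F p] (hd : 1 ≤ d) {k : ℕ} (hk : 1 < k) :
    ∃ x : GL (Fin d ⊕ Fin d) F, Elem k p (2 * d - 1) x := by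
  classical
  let i0 : Fin d := ⟨0, hd⟩
  set v : 𝕍 := Pi.single (Sum.inl i0) 1 with hv
  have hmul : ∀ u : 𝕍, ((GeoSp.tvGL v (1 : F)) : 𝕄) *ᵥ u = u + u (Sum.inr i0) • v := fun u => by
    rw [GeoSp.tvGL_mulVec, one_mul, hv, SpGeom.form_single_inl_right]
  have hpow : ∀ n : ℕ, (GeoSp.tvGL v (1 : F)) ^ n = GeoSp.tvGL v (n : F) := by
    intro n
    induction n with
    | zero => rw [pow_zero, Nat.cast_zero, GeoSp.tvGL_zero]
    | succ n ih => rw [pow_succ, ih, GeoSp.tvGL_mul, Nat.cast_succ]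
  refine ⟨GeoSp.tvGL v 1, GeoSp.tvGL_mem _ _, ?_, ?_, ?_, LinearMap.ker (LinearMap.proj (R := F)
    (φ := fun _ : Fin d ⊕ Fin d => F) (Sum.inr i0)), ?_, fun w hw => ?_⟩
  · rw [← Units.val_pow_eq_pow_val, hpow, CharP.cast_eq_zero, GeoSp.tvGL_zero, Units.val_one]
  · intro z hz
    have h1 := congrFun (hmul (Pi.single (Sum.inr i0) 1)) (Sum.inl i0)
    rw [hz, Matrix.smul_mulVec, Matrix.one_mulVec] at h1
    simp [hv] at h1
  · intro E _ _ ρ hE _ _
    by_contra hcomm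
    push Not at hcomm
    obtain ⟨a, ha⟩ := exists_not_algebraMap hk hE
    let ρ' : E →ₐ[F] Module.End F 𝕍 := (Matrix.toLinAlgEquiv').toAlgHom.comp ρ
    refine eigen_false ρ' ha (v := v) (lam := (ρ a *ᵥ Pi.single (Sum.inr i0) 1) (Sum.inr i0)) (by simp [hv]) ?_
    have h1 := congrArg (fun A : 𝕄 => A *ᵥ Pi.single (Sum.inr i0) 1) (hcomm a)
    simp only [← Matrix.mulVec_mulVec] at h1
    rw [hmul, hmul, Pi.single_eq_same, one_smul, Matrix.mulVec_add] at h1
    exact add_left_cancel h1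
  · have h1 := LinearMap.finrank_range_add_finrank_ker
      (LinearMap.proj (R := F) (φ := fun _ : Fin d ⊕ Fin d => F) (Sum.inr i0))
    rw [LinearMap.range_eq_top.2 (fun c => ⟨fun _ => c, rfl⟩), finrank_top, Module.finrank_self,
      Module.finrank_fintype_fun_eq_card, Fintype.card_sum, Fintype.card_fin] at h1
    omega
  · have hw0 : w (Sum.inr i0) = 0 := hw
    rw [hmul, hw0, zero_smul, add_zero]

theorem plane_elem (h2 : (2 : F) ≠ 0) (hd : 2 ≤ d) {k : ℕ} (hk : 1 < k) :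
    ∃ x : GL (Fin d ⊕ Fin d) F, Elem k 2 (2 * d - 2) x := by
  classical
  let B : LinearMap.BilinForm F ((F × F) × (Fin (d - 1) ⊕ Fin (d - 1) → F)) := LinearMap.mk₂ F
    (fun a b => (a.1.2 * b.1.1 - a.1.1 * b.1.2) + Cfsg.sympForm (d - 1) F a.2 b.2)
    (fun a a' b => by simp only [Prod.fst_add, Prod.snd_add, SpGeom.form_add_left]; ring)
    (fun c a b => by simp only [Prod.smul_fst, Prod.smul_snd, SpGeom.form_smul_left, smul_eq_mul]; ring)
    (fun a b b' => by simp only [Prod.fst_add, Prod.snd_add, SpGeom.form_add_right]; ring)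
    (fun c a b => by simp only [Prod.smul_fst, Prod.smul_snd, SpGeom.form_smul_right, smul_eq_mul]; ring)
  have hB : ∀ a b, B a b = (a.1.2 * b.1.1 - a.1.1 * b.1.2) + Cfsg.sympForm (d - 1) F a.2 b.2 := fun a b => rfl
  let T : ((F × F) × (Fin (d - 1) ⊕ Fin (d - 1) → F)) →ₗ[F] ((F × F) × (Fin (d - 1) ⊕ Fin (d - 1) → F)) :=
    ((-1 : F) • LinearMap.id).prodMap LinearMap.id
  have hTa : ∀ a, T a = ((-1 : F) • a.1, a.2) := fun a => rfl
  refine exists_of_model ?_ B (fun a => ?_) (fun a ha => ?_) T (fun u v => ?_) (fun u => ?_) (fun z => ?_)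
    (LinearMap.range (LinearMap.inr F (F × F) (Fin (d - 1) ⊕ Fin (d - 1) → F))) ?_ ?_ ?_
  · rw [Module.finrank_prod, Module.finrank_prod, Module.finrank_self, Module.finrank_fintype_fun_eq_card,
      Fintype.card_sum, Fintype.card_fin]
    omega
  · show B a a = 0
    rw [hB, SpGeom.form_self]; ring
  · have h1 : a.1.2 = 0 := by
      have := ha ((1, 0), 0)
      simpa [hB, SpGeom.form_zero_right] using this
    have h3 : a.1.1 = 0 := by
      have := ha ((0, 1), 0)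
      simpa [hB, SpGeom.form_zero_right] using this
    have h4 : a.2 = 0 := by
      by_contra h
      obtain ⟨y, hy⟩ := SpGeom.exists_form_ne_zero h
      have := ha ((0, 0), y)
      simp [hB] at this
      exact hy this
    exact Prod.ext (Prod.ext h3 h1) h4
  · rw [hB, hB, hTa, hTa]
    simp only [Prod.smul_fst, Prod.smul_snd, smul_eq_mul]
    ring
  · rw [sq, Module.End.mul_apply, hTa, hTa, smul_smul, neg_one_mul, neg_neg, one_smul]
  · by_contra hcon
    push Not at hcon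
    let i0 : Fin (d - 1) := ⟨0, by omega⟩
    have h1 := congrArg (fun a => a.1.1) (hcon ((1, 0), 0))
    have h3 := congrArg (fun a => a.2 (Sum.inl i0)) (hcon ((0, 0), Pi.single (Sum.inl i0) 1))
    simp [hTa] at h1 h3
    rw [← h3] at h1
    exact h2 (by linear_combination -h1)
  · rw [LinearMap.finrank_range_of_inj LinearMap.inr_injective, Module.finrank_fintype_fun_eq_card,
      Fintype.card_sum, Fintype.card_fin]
    omega
  · rintro _ ⟨y, rfl⟩
    rw [hTa]
    simp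
  · intro E _ _ ρ hE hsa halt
    by_contra hcomm
    push Not at hcomm
    obtain ⟨a, ha⟩ := exists_not_algebraMap hk hE
    have h1 := hcomm a ((1, 0), 0)
    rw [hTa ((1, 0), 0), hTa] at h1
    have hsnd : (ρ a ((1, 0), 0)).2 = 0 := by
      have h3 := congrArg Prod.snd h1
      rw [show ((-1 : F) • ((1 : F), (0 : F)), (0 : Fin (d - 1) ⊕ Fin (d - 1) → F)) =
        (-1 : F) • (((1 : F), (0 : F)), (0 : Fin (d - 1) ⊕ Fin (d - 1) → F)) from by simp, map_smul,
        Prod.smul_snd] at h3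
      have h4 : (2 : F) • (ρ a ((1, 0), 0)).2 = 0 := by
        rw [two_smul]
        nth_rewrite 1 [← h3]
        rw [neg_one_smul, neg_add_cancel]
      exact (smul_eq_zero.1 h4).resolve_left h2
    have h5 : (ρ a ((1, 0), 0)).1.2 = 0 := by
      have := halt a ((1, 0), 0)
      rw [hB, hsnd, SpGeom.form_zero_left] at this
      simpa using this
    refine eigen_false ρ ha (v := ((1, 0), 0)) (lam := (ρ a ((1, 0), 0)).1.1) (by simp) ?_
    refine Prod.ext (Prod.ext ?_ ?_) ?_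
    · simp
    · simp [h5]
    · simp [hsnd]

section Models

variable {L : Type u} [Field L] [Algebra F L] [FiniteDimensional F L] [Fintype F]

/-- Left multiplications give a module over the field. -/
theorem dvd_of_action {E : Type u} [Field E] [Algebra F E] {M : Type u} [AddCommGroup M] [Module F M]
    [FiniteDimensional F M] (α : E →ₐ[F] Module.End F M) : Module.finrank F E ∣ Module.finrank F M := by
  letI : Module E M := Module.compHom M α.toRingHom
  haveI : IsScalarTower F E M := ⟨fun c a z => by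
    show α (c • a) z = c • α a z
    rw [map_smul, LinearMap.smul_apply]⟩
  exact Dvd.intro _ (Module.finrank_mul_finrank F E M)

omit [Fintype F] in
theorem beta_zero [Finite L] {e : ℕ} (he : Odd e) {ζ : L} (hζ0 : ζ ≠ 0) (hodd2 : ζ * ζ ≠ 1)
    (hfe : Module.finrank F L = e) (β : L →ₗ[F] L) (hβh : ∀ z, β (ζ * z) = ζ⁻¹ * β z) : β = 0 := by
  refine LinearMap.ext fun z => ?_
  have h1 := SpSkew.intertwine β hβh (minpoly F ζ) z
  rw [minpoly.aeval, zero_mul, map_zero] at h1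
  rcases mul_eq_zero.1 h1.symm with h | h
  · exfalso
    obtain ⟨σ, hσ⟩ := isConjRoot_iff_exists_algEquiv.1
      (isConjRoot_of_aeval_eq_zero (Algebra.IsIntegral.isIntegral ζ) h : IsConjRoot F ζ ζ⁻¹)
    have hσ1 : ∀ (τ : L ≃ₐ[F] L), τ ζ⁻¹ = ζ → ∀ n : ℕ, (τ ^ n) ζ⁻¹ = if Even n then ζ⁻¹ else ζ := by
      intro τ hτ n
      induction n with
      | zero => simp
      | succ n ih =>
        rw [pow_succ', AlgEquiv.mul_apply, ih]
        by_cases hn : Even n
        · rw [if_pos hn, if_neg (by simpa [Nat.even_add_one] using hn), hτ]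
        · rw [if_neg hn, if_pos (by simpa [Nat.even_add_one] using hn)]
          rw [← inv_inv ζ, map_inv₀, hτ, inv_inv]
    have hcard : Nat.card (L ≃ₐ[F] L) = e := by rw [IsGalois.card_aut_eq_finrank, hfe]
    have h2 : (σ ^ e) ζ⁻¹ = ζ⁻¹ := by rw [← hcard, pow_card_eq_one', AlgEquiv.one_apply]
    rw [hσ1 σ hσ e, if_neg (Nat.not_even_iff_odd.2 he)] at h2
    refine hodd2 ?_
    nth_rewrite 2 [h2]
    rw [mul_inv_cancel₀ hζ0]
  · exact h

theorem odd_elem' {k r e : ℕ} (hr : r.Prime) (hr2 : r ≠ 2) (hfe : Module.finrank F L = e) (he : Odd e)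
    (hed : e ≤ d) (hke : ¬ k ∣ e) {ζ : L} (hζ : ζ ^ r = 1) (hζ1 : ζ ≠ 1) :
    ∃ x : GL (Fin d ⊕ Fin d) F, Elem k r (2 * d - 2 * e) x ∧
      ∀ (j : 𝕄) (ν : F), ¬ IsSquare ν → j * j = ν • 1 → j * (x : 𝕄) ≠ (x : 𝕄) * j := by
  classical
  haveI : Finite L := Module.finite_of_finite F
  have hζ0 : ζ ≠ 0 := fun h => by rw [h, zero_pow hr.ne_zero] at hζ; exact zero_ne_one hζ
  let B : LinearMap.BilinForm F ((L × L) × (Fin (d - e) ⊕ Fin (d - e) → F)) := LinearMap.mk₂ F
    (fun a b => Algebra.trace F L (a.1.2 * b.1.1 - a.1.1 * b.1.2) + Cfsg.sympForm (d - e) F a.2 b.2)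
    (fun a a' b => by
      simp only [Prod.fst_add, Prod.snd_add, SpGeom.form_add_left, add_mul, map_add, map_sub]; ring)
    (fun c a b => by
      simp only [Prod.smul_fst, Prod.smul_snd, SpGeom.form_smul_left, smul_mul_assoc, ← smul_sub, map_smul,
        smul_eq_mul]; ring)
    (fun a b b' => by
      simp only [Prod.fst_add, Prod.snd_add, SpGeom.form_add_right, mul_add, map_add, map_sub]; ring)
    (fun c a b => by
      simp only [Prod.smul_fst, Prod.smul_snd, SpGeom.form_smul_right, mul_smul_comm, ← smul_sub, map_smul,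
        smul_eq_mul]; ring)
  have hB : ∀ a b, B a b = Algebra.trace F L (a.1.2 * b.1.1 - a.1.1 * b.1.2) + Cfsg.sympForm (d - e) F a.2 b.2 :=
    fun a b => rfl
  let T : ((L × L) × (Fin (d - e) ⊕ Fin (d - e) → F)) →ₗ[F] ((L × L) × (Fin (d - e) ⊕ Fin (d - e) → F)) :=
    ((LinearMap.mulLeft F ζ).prodMap (LinearMap.mulLeft F ζ⁻¹)).prodMap LinearMap.id
  have hTa : ∀ a, T a = ((ζ * a.1.1, ζ⁻¹ * a.1.2), a.2) := fun a => rfl
  have hTpow : ∀ (n : ℕ) a, (T ^ n) a = ((ζ ^ n * a.1.1, ζ⁻¹ ^ n * a.1.2), a.2) := by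
    intro n
    induction n with
    | zero => intro a; simp
    | succ n ih => intro a; rw [pow_succ', Module.End.mul_apply, ih, hTa]; simp [pow_succ', mul_assoc]
  have hodd2 : ζ * ζ ≠ 1 := fun h2 => hζ1 (by
    obtain ⟨n, hn⟩ := hr.odd_of_ne_two hr2
    rwa [hn, pow_succ, pow_mul, sq, h2, one_pow, one_mul] at hζ)
  suffices h : ∃ x : GL (Fin d ⊕ Fin d) F, Elem k r (2 * d - 2 * e) x ∧
      ∃ g : ((L × L) × (Fin (d - e) ⊕ Fin (d - e) → F)) ≃ₗ[F] (Fin d ⊕ Fin d → F), ∀ u, (x : 𝕄) *ᵥ g u = g (T u) by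
    obtain ⟨x, hx, g, hg⟩ := h
    refine ⟨x, hx, fun j ν hν hsq hcomm => ?_⟩
    let J : ((L × L) × (Fin (d - e) ⊕ Fin (d - e) → F)) →ₗ[F] ((L × L) × (Fin (d - e) ⊕ Fin (d - e) → F)) :=
      (g.symm : 𝕍 →ₗ[F] _) ∘ₗ Matrix.mulVecLin j ∘ₗ (g : _ →ₗ[F] 𝕍)
    have hJa : ∀ u, J u = g.symm (j *ᵥ g u) := fun u => rfl
    have hcJ : ∀ u, J (T u) = T (J u) := fun u => g.injective (by
      rw [← hg, hJa, hJa, g.apply_symm_apply, ← hg, g.apply_symm_apply, Matrix.mulVec_mulVec, hcomm,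
        Matrix.mulVec_mulVec])
    have hJJ : ∀ u, J (J u) = ν • u := fun u => by
      rw [hJa, hJa, g.apply_symm_apply, Matrix.mulVec_mulVec, hsq, Matrix.smul_mulVec, Matrix.one_mulVec, map_smul,
        g.symm_apply_apply]
    let ι₁ : L →ₗ[F] ((L × L) × (Fin (d - e) ⊕ Fin (d - e) → F)) :=
      (LinearMap.inl F (L × L) _).comp (LinearMap.inl F L L)
    let γ : L →ₗ[F] (Fin (d - e) ⊕ Fin (d - e) → F) := (LinearMap.snd F (L × L) _) ∘ₗ J ∘ₗ ι₁
    let β : L →ₗ[F] L := (LinearMap.snd F L L) ∘ₗ (LinearMap.fst F (L × L) _) ∘ₗ J ∘ₗ ι₁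
    let α : L →ₗ[F] L := (LinearMap.fst F L L) ∘ₗ (LinearMap.fst F (L × L) _) ∘ₗ J ∘ₗ ι₁
    have hι : ∀ z, ι₁ (ζ * z) = T (ι₁ z) := fun z => by simp [ι₁, hTa]
    have hγ : γ = 0 := SpSkew.fix_eq_zero hζ1 γ fun z => by
      show (J (ι₁ (ζ * z))).2 = (J (ι₁ z)).2
      rw [hι, hcJ]
      rfl
    have hβh : ∀ z, β (ζ * z) = ζ⁻¹ * β z := fun z => by
      show (J (ι₁ (ζ * z))).1.2 = ζ⁻¹ * (J (ι₁ z)).1.2
      rw [hι, hcJ]
      rfl
    have hβ : β = 0 := beta_zero he hζ0 hodd2 hfe β hβh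
    have hj : ∀ z, J (ι₁ z) = ι₁ (α z) := fun z =>
      Prod.ext (Prod.ext rfl (LinearMap.congr_fun hβ z)) (LinearMap.congr_fun hγ z)
    obtain ⟨n, hn⟩ := SpSkew.even_finrank α hν (fun z => by
      have h1 := hJJ (ι₁ z)
      rw [hj, hj] at h1
      exact congrArg (fun a => a.1.1) h1)
    obtain ⟨n', hn'⟩ := he
    omega
  refine exists_of_model' ?_ B (fun a => ?_) (fun a ha => ?_) T (fun u v => ?_) (fun u => ?_) (fun z => ?_)
    (LinearMap.range (LinearMap.inr F (L × L) (Fin (d - e) ⊕ Fin (d - e) → F))) ?_ ?_ ?_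
  · rw [Module.finrank_prod, Module.finrank_prod, Module.finrank_fintype_fun_eq_card, Fintype.card_sum,
      Fintype.card_fin, hfe]
    omega
  · show B a a = 0
    rw [hB, SpGeom.form_self, mul_comm a.1.2, sub_self, map_zero, add_zero]
  · have h1 : a.1.2 = 0 := SpSkew.trace_nondeg (F := F) fun c => by
      have := ha ((c, 0), 0)
      rwa [hB, mul_zero, sub_zero, SpGeom.form_zero_right, add_zero] at this
    have h2 : a.1.1 = 0 := SpSkew.trace_nondeg (F := F) fun c => by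
      have := ha ((0, c), 0)
      rwa [hB, mul_zero, zero_sub, map_neg, SpGeom.form_zero_right, add_zero, neg_eq_zero] at this
    have h3 : a.2 = 0 := by
      by_contra h
      obtain ⟨y, hy⟩ := SpGeom.exists_form_ne_zero h
      have := ha ((0, 0), y)
      rw [hB, mul_zero, mul_zero, sub_zero, map_zero, zero_add] at this
      exact hy this
    exact Prod.ext (Prod.ext h2 h1) h3
  · rw [hB, hB, hTa, hTa]
    congr 2
    field_simp
  · rw [hTpow, hζ, inv_pow, hζ, inv_one, one_mul, one_mul]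
  · by_contra hcon
    push Not at hcon
    have h := hcon ((1, 1), 0)
    rw [hTa] at h
    simp only [Prod.smul_mk, Prod.mk.injEq, mul_one] at h
    refine hodd2 ?_
    conv_lhs => arg 2; rw [h.1.1.trans h.1.2.symm]
    rw [mul_inv_cancel₀ hζ0]
  · rw [LinearMap.finrank_range_of_inj LinearMap.inr_injective, Module.finrank_fintype_fun_eq_card,
      Fintype.card_sum, Fintype.card_fin]
    omega
  · rintro _ ⟨y, rfl⟩
    rw [hTa]
    simp
  · intro E _ _ ρ hE _ _
    by_contra hcon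
    push Not at hcon
    let ι₁ : L →ₗ[F] ((L × L) × (Fin (d - e) ⊕ Fin (d - e) → F)) :=
      (LinearMap.inl F (L × L) _).comp (LinearMap.inl F L L)
    let π : ((L × L) × (Fin (d - e) ⊕ Fin (d - e) → F)) →ₗ[F] L :=
      (LinearMap.fst F L L) ∘ₗ (LinearMap.fst F (L × L) _)
    have hι : ∀ z, ι₁ (ζ * z) = T (ι₁ z) := fun z => by simp [ι₁, hTa]
    have hj : ∀ a z, ρ a (ι₁ z) = ι₁ (π (ρ a (ι₁ z))) := by
      intro a
      let γ : L →ₗ[F] (Fin (d - e) ⊕ Fin (d - e) → F) := (LinearMap.snd F (L × L) _) ∘ₗ ρ a ∘ₗ ι₁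
      let β : L →ₗ[F] L := (LinearMap.snd F L L) ∘ₗ (LinearMap.fst F (L × L) _) ∘ₗ ρ a ∘ₗ ι₁
      have hγ : γ = 0 := SpSkew.fix_eq_zero hζ1 γ fun z => by
        show (ρ a (ι₁ (ζ * z))).2 = (ρ a (ι₁ z)).2
        rw [hι, hcon]
        rfl
      have hβh : ∀ z, β (ζ * z) = ζ⁻¹ * β z := fun z => by
        show (ρ a (ι₁ (ζ * z))).1.2 = ζ⁻¹ * (ρ a (ι₁ z)).1.2
        rw [hι, hcon]
        rfl
      have hβ : β = 0 := beta_zero he hζ0 hodd2 hfe β hβh
      intro z
      refine Prod.ext (Prod.ext rfl ?_) ?_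
      · exact LinearMap.congr_fun hβ z
      · exact LinearMap.congr_fun hγ z
    let α : E →ₐ[F] Module.End F L := AlgHom.ofLinearMap
      { toFun := fun a => π ∘ₗ ρ a ∘ₗ ι₁
        map_add' := fun a b => LinearMap.ext fun z => by
          simp only [LinearMap.comp_apply, map_add ρ, LinearMap.add_apply, map_add]
        map_smul' := fun c a => LinearMap.ext fun z => by
          simp only [LinearMap.comp_apply, map_smul ρ, LinearMap.smul_apply, map_smul, RingHom.id_apply] }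
      (LinearMap.ext fun z => by
        show π (ρ 1 (ι₁ z)) = z
        rw [map_one, Module.End.one_apply]; rfl)
      (fun a b => LinearMap.ext fun z => by
        show π (ρ (a * b) (ι₁ z)) = π (ρ a (ι₁ (π (ρ b (ι₁ z)))))
        rw [← hj, map_mul ρ, Module.End.mul_apply])
    have := dvd_of_action α
    rw [hE, hfe] at this
    exact hke this

theorem odd_elem {k r e : ℕ} (hr : r.Prime) (hr2 : r ≠ 2) (hfe : Module.finrank F L = e) (he : Odd e)
    (hed : e ≤ d) (hke : ¬ k ∣ e) {ζ : L} (hζ : ζ ^ r = 1) (hζ1 : ζ ≠ 1) :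
    ∃ x : GL (Fin d ⊕ Fin d) F, Elem k r (2 * d - 2 * e) x := by
  obtain ⟨x, hx, -⟩ := odd_elem' hr hr2 hfe he hed hke hζ hζ1
  exact ⟨x, hx⟩

theorem half_elem {k r h : ℕ} (hfe : Module.finrank F L = 2 * h) (hhd : h ≤ d) (hkh : ¬ k ∣ h)
    (τ : L ≃ₐ[F] L) (hτ : ∀ z, τ z = z ^ (Fintype.card F ^ h)) {ζ : L} (hζ : ζ ^ r = 1) (hζ1 : ζ ≠ 1)
    (hζ2 : ζ * ζ ≠ 1) (hτζ : τ ζ = ζ⁻¹) (hgen : ∀ z : L, ∃ P : Polynomial F, Polynomial.aeval ζ P = z)
    (hnz : ∀ c : F, algebraMap F L c ≠ ζ) :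
    ∃ x : GL (Fin d ⊕ Fin d) F, Elem k r (2 * d - 2 * h) x := by
  classical
  have hζ0 : ζ ≠ 0 := fun h0 => hnz 0 (by rw [map_zero, h0])
  haveI : Finite L := Module.finite_of_finite F
  letI : Fintype L := Fintype.ofFinite L
  have hcardL : Fintype.card L = (Fintype.card F ^ h) ^ 2 := by
    rw [Module.card_eq_pow_finrank (K := F), hfe, ← pow_mul, mul_comm]
  have hττ : ∀ z, τ (τ z) = z := fun z => by
    rw [hτ, hτ, ← pow_mul, ← sq, ← hcardL, FiniteField.pow_card]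
  -- the skew element
  set δ := ζ - τ ζ with hδdef
  have hδ : δ ≠ 0 := fun h0 => hζ2 (by
    rw [hδdef, hτζ, sub_eq_zero] at h0
    nth_rewrite 1 [h0]
    rw [inv_mul_cancel₀ hζ0])
  have hτδ : τ δ = -δ := by rw [hδdef, map_sub, hττ]; ring
  have htr : ∀ z, Algebra.trace F L (τ z) = Algebra.trace F L z := fun z => Algebra.trace_eq_of_algEquiv τ z
  have halt : ∀ z : L, Algebra.trace F L (δ * (z * τ z)) = 0 := by
    intro z
    have e : δ * (z * τ z) = ζ * (z * τ z) - τ (ζ * (z * τ z)) := by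
      rw [map_mul τ, map_mul τ, hττ, hδdef]; ring
    rw [e, map_sub, htr, sub_self]
  let B : LinearMap.BilinForm F (L × (Fin (d - h) ⊕ Fin (d - h) → F)) := LinearMap.mk₂ F
    (fun a b => Algebra.trace F L (δ * (a.1 * τ b.1)) + Cfsg.sympForm (d - h) F a.2 b.2)
    (fun a a' b => by
      simp only [Prod.fst_add, Prod.snd_add, SpGeom.form_add_left, mul_add, add_mul, map_add]; ring)
    (fun c a b => by
      simp only [Prod.smul_fst, Prod.smul_snd, SpGeom.form_smul_left, mul_smul_comm, smul_mul_assoc, map_smul,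
        smul_eq_mul]; ring)
    (fun a b b' => by
      simp only [Prod.fst_add, Prod.snd_add, SpGeom.form_add_right, map_add, mul_add]; ring)
    (fun c a b => by
      simp only [Prod.smul_fst, Prod.smul_snd, SpGeom.form_smul_right, map_smul, mul_smul_comm, smul_eq_mul]; ring)
  have hB : ∀ a b, B a b = Algebra.trace F L (δ * (a.1 * τ b.1)) + Cfsg.sympForm (d - h) F a.2 b.2 := fun a b => rfl
  let T : (L × (Fin (d - h) ⊕ Fin (d - h) → F)) →ₗ[F] (L × (Fin (d - h) ⊕ Fin (d - h) → F)) :=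
    (LinearMap.mulLeft F ζ).prodMap LinearMap.id
  have hTa : ∀ a, T a = (ζ * a.1, a.2) := fun a => rfl
  have hTpow : ∀ (n : ℕ) a, (T ^ n) a = (ζ ^ n * a.1, a.2) := by
    intro n
    induction n with
    | zero => intro a; simp
    | succ n ih => intro a; rw [pow_succ', Module.End.mul_apply, ih, hTa]; simp [pow_succ', mul_assoc]
  refine exists_of_model ?_ B (fun a => ?_) (fun a ha => ?_) T (fun u v => ?_) (fun u => ?_) (fun z => ?_)
    (LinearMap.range (LinearMap.inr F L (Fin (d - h) ⊕ Fin (d - h) → F))) ?_ ?_ ?_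
  · rw [Module.finrank_prod, Module.finrank_fintype_fun_eq_card, Fintype.card_sum, Fintype.card_fin, hfe]
    omega
  · show B a a = 0
    rw [hB, SpGeom.form_self, add_zero, halt]
  · have h1 : a.1 = 0 := SpSkew.trace_nondeg (F := F) fun c => by
      have := ha (τ (c / δ), 0)
      rw [hB, hττ, SpGeom.form_zero_right, add_zero, ← mul_assoc, mul_right_comm, mul_div_cancel₀ _ hδ,
        mul_comm] at this
      exact this
    have h3 : a.2 = 0 := by
      by_contra h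
      obtain ⟨y, hy⟩ := SpGeom.exists_form_ne_zero h
      have := ha (0, y)
      rw [hB, map_zero, mul_zero, mul_zero, map_zero, zero_add] at this
      exact hy this
    exact Prod.ext h1 h3
  · rw [hB, hB, hTa, hTa, map_mul τ, hτζ]
    congr 2
    field_simp
  · rw [hTpow, hζ, one_mul]
  · by_contra hcon
    push Not at hcon
    have h1 := hcon (1, 0)
    rw [hTa] at h1
    simp only [Prod.smul_mk, Prod.mk.injEq, mul_one] at h1
    exact hnz z (by rw [Algebra.algebraMap_eq_smul_one, h1.1])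
  · rw [LinearMap.finrank_range_of_inj LinearMap.inr_injective, Module.finrank_fintype_fun_eq_card,
      Fintype.card_sum, Fintype.card_fin]
    omega
  · rintro _ ⟨y, rfl⟩
    rw [hTa]
    simp
  · intro E _ _ ρ hE hsa _
    by_contra hcon
    push Not at hcon
    let ι₁ : L →ₗ[F] (L × (Fin (d - h) ⊕ Fin (d - h) → F)) := LinearMap.inl F L _
    let π : (L × (Fin (d - h) ⊕ Fin (d - h) → F)) →ₗ[F] L := LinearMap.fst F L _
    have hι : ∀ z, ι₁ (ζ * z) = T (ι₁ z) := fun z => by simp [ι₁, hTa]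
    have hj : ∀ a z, ρ a (ι₁ z) = ι₁ (π (ρ a (ι₁ z))) := by
      intro a
      let γ : L →ₗ[F] (Fin (d - h) ⊕ Fin (d - h) → F) := (LinearMap.snd F L _) ∘ₗ ρ a ∘ₗ ι₁
      have hγ : γ = 0 := SpSkew.fix_eq_zero hζ1 γ fun z => by
        show (ρ a (ι₁ (ζ * z))).2 = (ρ a (ι₁ z)).2
        rw [hι, hcon]
        rfl
      exact fun z => Prod.ext rfl (LinearMap.congr_fun hγ z)
    have hmulc : ∀ a z, π (ρ a (ι₁ z)) = z * π (ρ a (ι₁ 1)) := by
      intro a z
      obtain ⟨P, rfl⟩ := hgen z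
      have hαh : ∀ y, (π ∘ₗ ρ a ∘ₗ ι₁) (ζ * y) = ζ * (π ∘ₗ ρ a ∘ₗ ι₁) y := fun y => by
        show (ρ a (ι₁ (ζ * y))).1 = ζ * (ρ a (ι₁ y)).1
        rw [hι, hcon]
        rfl
      simpa using SpSkew.intertwine (π ∘ₗ ρ a ∘ₗ ι₁) hαh P 1
    let φ : E →ₐ[F] L := AlgHom.ofLinearMap
      { toFun := fun a => π (ρ a (ι₁ 1))
        map_add' := fun a b => by rw [map_add ρ, LinearMap.add_apply, map_add]
        map_smul' := fun c a => by rw [map_smul ρ, LinearMap.smul_apply, map_smul, RingHom.id_apply] }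
      (by
        show π (ρ 1 (ι₁ 1)) = 1
        rw [map_one, Module.End.one_apply]; rfl)
      (fun a b => by
        show π (ρ (a * b) (ι₁ 1)) = π (ρ a (ι₁ 1)) * π (ρ b (ι₁ 1))
        rw [map_mul ρ, Module.End.mul_apply, hj, hmulc a (π (ρ b (ι₁ 1))), mul_comm]
        rfl)
    have hfix : ∀ a, τ (φ a) = φ a := by
      intro a
      have h1 : ∀ c : L, Algebra.trace F L ((δ * (φ a - τ (φ a))) * c) = 0 := by
        intro c
        have h3 := hsa a (ι₁ c) (ι₁ 1)
        rw [hj a c, hj a 1, hB, hB, hmulc a c] at h3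
        simp only [ι₁, LinearMap.inl_apply, SpGeom.form_zero_right, add_zero] at h3
        rw [map_one, mul_one] at h3
        have e : (δ * (φ a - τ (φ a))) * c = δ * (c * π (ρ a (ι₁ 1))) - δ * (c * τ (π (ρ a (ι₁ 1)))) := by
          show (δ * (π (ρ a (ι₁ 1)) - τ (π (ρ a (ι₁ 1))))) * c = _
          ring
        rw [e, map_sub, sub_eq_zero]
        exact h3
      exact (sub_eq_zero.1 ((mul_eq_zero.1 (SpSkew.trace_nondeg (F := F) h1)).resolve_left hδ)).symm
    haveI : FiniteDimensional F E :=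
      FiniteDimensional.of_injective φ.toLinearMap φ.toRingHom.injective
    haveI : Finite E := Module.finite_of_finite F
    have hfrob : FiniteField.frobeniusAlgEquivOfAlgebraic F E ^ h = 1 := by
      refine AlgEquiv.ext fun a => φ.toRingHom.injective ?_
      show φ ((FiniteField.frobeniusAlgEquivOfAlgebraic F E ^ h) a) = φ a
      rw [AlgEquiv.coe_pow, FiniteField.coe_frobeniusAlgEquivOfAlgebraic_iterate, map_pow, ← hτ, hfix]
    have h1 := orderOf_dvd_of_pow_eq_one hfrob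
    rw [FiniteField.orderOf_frobeniusAlgEquivOfAlgebraic, hE] at h1
    exact hkh h1

end Models

end CfsgLib.SpExt
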